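import Cfsg.Agent.Lib.GL.HermBasis
import Cfsg.Agent.Lib.Spor.F4
import Cfsg.Prelude.Def_Classical

set_option autoImplicit false

/-! # `SU(n, 2)` is generated by transvections for `n ≥ 4` -/

namespace Cfsg.Agent.Lib.Fischer

open Module Matrix Cfsg.Agent.Lib.GL.Herm Cfsg.Agent.Spor Subgroup

/-- the Frobenius map of the field with four elements -/
def fr : F4 →+* F4 where
  toFun := F4.inv
  map_one' := rfl
  map_zero' := rfl
  map_mul' := by decide
  map_add' := by decide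

theorem fr_eq_sq : ∀ a, fr a = a ^ 2 := by decide

theorem fr_fr : ∀ a, fr (fr a) = a := by decide

theorem isInvol_fr : IsInvol fr := ⟨fr_fr, F4.w, by decide⟩

instance : CharP F4 2 := CharTwo.of_one_ne_zero_of_two_eq_zero (by decide) (by decide)

/-- the standard hermitian form -/
abbrev hf {n : ℕ} : (Fin n → F4) →ₗ[F4] (Fin n → F4) →ₛₗ[fr] F4 := stdHerm (Fin n) fr

variable {n : ℕ}

theorem hf_swap (u v : Fin n → F4) : hf v u = fr (hf u v) := (isHerm_stdHerm isInvol_fr _).herm u v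

theorem hf_nondeg {v : Fin n → F4} (h : ∀ u, hf u v = 0) : v = 0 :=
  (isHerm_stdHerm isInvol_fr _).nondeg v h

theorem hf_self (v : Fin n → F4) : hf v v = 0 ∨ hf v v = 1 := by
  have h := hf_swap v v
  generalize hf v v = c at h
  revert c; decide

theorem hf_comm {u v : Fin n → F4} : hf u v = 0 ↔ hf v u = 0 := by
  rw [hf_swap u v, map_eq_zero fr]

theorem vadd_self (v : Fin n → F4) : v + v = 0 := by
  ext i; exact CharTwo.add_self_eq_zero _

/-- quasi-reflections and transvections -/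
def qT (u : Fin n → F4) (c : F4) : Matrix (Fin n) (Fin n) F4 :=
  1 + vecMulVec (c • u) fun i => fr (u i)

theorem qT_mulVec (u y : Fin n → F4) (c : F4) : qT u c *ᵥ y = y + (c * hf y u) • u := by
  rw [qT, add_mulVec, one_mulVec, vecMulVec_mulVec, stdHerm_apply]
  ext i
  simp [dotProduct, mul_comm, mul_left_comm, mul_assoc]

theorem det_qT (u : Fin n → F4) (c : F4) : (qT u c).det = 1 + c * hf u u := by
  rw [qT, vecMulVec_eq (Fin 1), det_one_add_replicateCol_mul_replicateRow, stdHerm_apply]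
  simp [dotProduct, Finset.mul_sum, mul_comm, mul_left_comm, mul_assoc]

/-- isometries -/
def Isom (A : Matrix (Fin n) (Fin n) F4) : Prop := ∀ u v, hf (A *ᵥ u) (A *ᵥ v) = hf u v

theorem isom_qT {u : Fin n → F4} {c : F4} (h : c + fr c + c * fr c * hf u u = 0) :
    Isom (qT u c) := by
  intro x y
  rw [qT_mulVec, qT_mulVec]
  simp only [map_add, map_smul, map_smulₛₗ, LinearMap.add_apply, LinearMap.smul_apply, smul_eq_mul,
    map_mul, ← hf_swap]
  linear_combination (hf x u * hf u y) * h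

theorem Isom.mul {A B : Matrix (Fin n) (Fin n) F4} (hA : Isom A) (hB : Isom B) : Isom (A * B) :=
  fun u v => by rw [← mulVec_mulVec, ← mulVec_mulVec, hA, hB]

theorem mat_ext {A B : Matrix (Fin n) (Fin n) F4} (h : ∀ y, A *ᵥ y = B *ᵥ y) : A = B :=
  Matrix.toLin'.injective (LinearMap.ext h)

theorem Isom.mul_qT {A : Matrix (Fin n) (Fin n) F4} (hA : Isom A) (u : Fin n → F4) (c : F4) :
    A * qT u c = qT (A *ᵥ u) c * A := mat_ext fun y => by
  rw [← mulVec_mulVec, ← mulVec_mulVec, qT_mulVec, qT_mulVec, hA, mulVec_add, mulVec_smul]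

theorem qT_mul (u : Fin n → F4) (c d : F4) : qT u c * qT u d = qT u (c + d + c * d * hf u u) :=
  mat_ext fun y => by
    rw [← mulVec_mulVec, qT_mulVec, qT_mulVec, qT_mulVec]
    simp only [map_add, map_smul, LinearMap.add_apply, LinearMap.smul_apply, smul_eq_mul]
    module

theorem qT_zero (u : Fin n → F4) : qT u 0 = 1 := by simp [qT]

theorem qT_smul (u : Fin n → F4) (c : F4) {l : F4} (hl : l ≠ 0) : qT (l • u) c = qT u c :=
  mat_ext fun y => by
    have : l * fr l = 1 := by revert l; decide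
    rw [qT_mulVec, qT_mulVec, map_smulₛₗ, smul_smul, smul_eq_mul]
    congr 2
    linear_combination (c * hf y u) * this

/-- the matrix of an element of `SU` -/
def mt (g : SU n F4 2) : Matrix (Fin n) (Fin n) F4 := g.1.1

theorem mt_mul (g h : SU n F4 2) : mt (g * h) = mt g * mt h := rfl

theorem mt_one : mt (1 : SU n F4 2) = 1 := rfl

theorem mt_inj {g h : SU n F4 2} (e : mt g = mt h) : g = h := Subtype.ext (Subtype.ext e)

theorem isom_mt (g : SU n F4 2) : Isom (mt g) := fun u v => by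
  rw [stdHerm_eq_hermForm fr_eq_sq, stdHerm_eq_hermForm fr_eq_sq]
  exact g.2 u v

theorem det_mt (g : SU n F4 2) : (mt g).det = 1 := g.1.2

/-- unitary transvections -/
def uT (v : Fin n → F4) : SU n F4 2 :=
  if h : hf v v = 0 then
    ⟨⟨qT v 1, by rw [det_qT, h]; rfl⟩, fun x y => by
      rw [← stdHerm_eq_hermForm fr_eq_sq, ← stdHerm_eq_hermForm fr_eq_sq]
      exact isom_qT (by rw [h]; rfl) x y⟩
  else 1

theorem mt_uT {v : Fin n → F4} (h : hf v v = 0) : mt (uT v) = qT v 1 := by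
  rw [uT, dif_pos h]; rfl

theorem uT_mulVec {v : Fin n → F4} (h : hf v v = 0) (y : Fin n → F4) :
    mt (uT v) *ᵥ y = y + hf y v • v := by rw [mt_uT h, qT_mulVec, one_mul]

theorem uT_mul_self {v : Fin n → F4} (h : hf v v = 0) : uT v * uT v = 1 :=
  mt_inj (by rw [mt_mul, mt_uT h, qT_mul, h, mt_one, ← qT_zero v]; rfl)

theorem uT_smul {v : Fin n → F4} (h : hf v v = 0) {l : F4} (hl : l ≠ 0) : uT (l • v) = uT v :=
  mt_inj (by rw [mt_uT h, mt_uT (by simp [h]), qT_smul _ _ hl])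

theorem mul_uT (g : SU n F4 2) {v : Fin n → F4} (h : hf v v = 0) :
    g * uT v = uT (mt g *ᵥ v) * g :=
  mt_inj (by rw [mt_mul, mt_mul, mt_uT h, mt_uT (by rw [isom_mt, h]), (isom_mt g).mul_qT])

theorem hf_single (i : Fin n) (a : F4) (u : Fin n → F4) : hf (Pi.single i a) u = a * fr (u i) := by
  rw [stdHerm_apply, Finset.sum_eq_single i] <;> simp +contextual [Pi.single_apply]

theorem closure_uT (hn : 4 ≤ n) : closure {g : SU n F4 2 | ∃ v, v ≠ 0 ∧ hf v v = 0 ∧ g = uT v} = ⊤ := by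
  set K := closure {g : SU n F4 2 | ∃ v, v ≠ 0 ∧ hf v v = 0 ∧ g = uT v} with hK
  have hT : ∀ v, hf v v = 0 → uT v ∈ K := fun v hv => by
    by_cases h0 : v = 0
    · rw [show uT v = 1 from mt_inj (by rw [mt_uT hv, h0, mt_one]; simp [qT])]
      exact one_mem _
    · exact subset_closure ⟨v, h0, hv, rfl⟩
  obtain ⟨k, rfl⟩ : ∃ k, n = k + 4 := ⟨n - 4, by omega⟩
  let e : Fin (k + 4) → Fin (k + 4) → F4 := fun i => Pi.single i 1
  have step : ∀ u v : Fin (k + 4) → F4, hf u u = 1 → hf v v = 1 → hf u v = 0 →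
      (∃ t ∈ K, mt t *ᵥ e 0 = u) → ∃ t ∈ K, mt t *ᵥ e 0 = v := by
    rintro u v hu hv huv ⟨t, ht, h⟩
    have h1 : hf (u + v) (u + v) = 0 := by
      simp only [map_add, LinearMap.add_apply, hu, hv, huv, hf_comm.mp huv]; rfl
    refine ⟨uT (u + v) * t, mul_mem (hT _ h1) ht, ?_⟩
    rw [mt_mul, ← mulVec_mulVec, h, uT_mulVec h1, map_add, hu, huv, add_zero, one_smul,
      ← add_assoc, vadd_self, zero_add]
  have ee : ∀ i, hf (e i) (e i) = 1 := fun i => by simp [e, hf_single]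
  have he : ∀ i, ∃ t ∈ K, mt t *ᵥ e 0 = e i := fun i => by
    by_cases hi : i = 0
    · exact ⟨1, one_mem _, by rw [hi, mt_one, one_mulVec]⟩
    · exact step _ _ (ee 0) (ee i) (by simp [e, hf_single, Ne.symm hi])
        ⟨1, one_mem _, by rw [mt_one, one_mulVec]⟩
  have h1 : ∀ u : Fin (k + 4) → F4, hf u u = 1 → (∃ i, u i = 0) → ∃ t ∈ K, mt t *ᵥ e 0 = u :=
    fun u hu ⟨i, hi⟩ => step _ _ (ee i) hu (by simp [e, hf_single, hi]) (he i)
  have trans : ∀ u : Fin (k + 4) → F4, hf u u = 1 → ∃ t ∈ K, mt t *ᵥ e 0 = u := fun u hu => by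
    by_cases h : ∃ i, u i = 0
    · exact h1 u hu h
    push Not at h
    have hN : ∀ i, u i * fr (u i) = 1 := fun i => by
      have := h i
      generalize u i = c at this
      revert c; decide
    obtain ⟨i0, i1, i2, i3, h01, h02, h12, h03, h13, h23⟩ : ∃ i0 i1 i2 i3 : Fin (k + 4),
        i0 ≠ i1 ∧ i0 ≠ i2 ∧ i1 ≠ i2 ∧ i3 ≠ i0 ∧ i3 ≠ i1 ∧ i3 ≠ i2 :=
      ⟨⟨0, by omega⟩, ⟨1, by omega⟩, ⟨2, by omega⟩, ⟨3, by omega⟩, by simp⟩
    let y : Fin (k + 4) → F4 :=
      Pi.single i0 (u i0) + Pi.single i1 (F4.w * u i1) + Pi.single i2 (F4.v * u i2)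
    have hy : hf y y = 1 := by
      have y0 : y i0 = u i0 := by simp [y, h01, h02]
      have y1 : y i1 = F4.w * u i1 := by simp [y, h01.symm, h12]
      have y2 : y i2 = F4.v * u i2 := by simp [y, h02.symm, h12.symm]
      conv_lhs => lhs; unfold y
      simp only [map_add, LinearMap.add_apply, hf_single, y0, y1, y2, map_mul]
      calc _ = u i0 * fr (u i0) + (F4.w * fr F4.w) * (u i1 * fr (u i1)) +
          (F4.v * fr F4.v) * (u i2 * fr (u i2)) := by ring
        _ = 1 := by rw [hN, hN, hN]; rfl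
    refine step y u hy hu ?_ (h1 y hy ⟨i3, by simp [y, h03, h13, h23]⟩)
    simp only [y, map_add, LinearMap.add_apply, hf_single, mul_assoc, hN]
    rfl
  have norm : ∀ A, Isom A → ∀ t ∈ K, ∃ t' ∈ K, A * mt t = mt t' * A := fun A hA t ht => by
    refine closure_induction (p := fun t _ => ∃ t' ∈ K, A * mt t = mt t' * A) ?_
      ⟨1, one_mem _, by simp [mt_one]⟩ ?_ ?_ ht
    · rintro _ ⟨v, -, hv, rfl⟩
      exact ⟨_, hT (A *ᵥ v) (by rw [hA, hv]), by rw [mt_uT hv, mt_uT (by rw [hA, hv]), hA.mul_qT]⟩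
    · rintro a b _ _ ⟨a', ha, h1⟩ ⟨b', hb, h2⟩
      exact ⟨a' * b', mul_mem ha hb, by rw [mt_mul, mt_mul, ← mul_assoc, h1, mul_assoc, h2, mul_assoc]⟩
    · rintro a _ ⟨a', ha, h1⟩
      refine ⟨a'⁻¹, inv_mem ha, ?_⟩
      calc A * mt a⁻¹ = mt a'⁻¹ * (mt a' * A) * mt a⁻¹ := by
            rw [← mul_assoc, ← mt_mul, inv_mul_cancel, mt_one, one_mul]
        _ = mt a'⁻¹ * A := by
            rw [← h1, mul_assoc, mul_assoc, ← mt_mul, mul_inv_cancel, mt_one, mul_one]
  let P : Matrix (Fin (k + 4)) (Fin (k + 4)) F4 → Prop := fun A =>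
    ∃ t ∈ K, ∃ c, c + fr c + c * fr c = 0 ∧ A = mt t * qT (e 0) c
  have hP : ∀ u c A, c + fr c + c * fr c * hf u u = 0 → P A → P (qT u c * A) := by
    rintro u c _ hc ⟨t, ht, d, hd, rfl⟩
    rcases hf_self u with hu | hu
    · rw [hu] at hc
      obtain rfl | rfl : c = 0 ∨ c = 1 := by revert c; decide
      · exact ⟨t, ht, d, hd, by rw [qT_zero, one_mul]⟩
      · exact ⟨uT u * t, mul_mem (hT u hu) ht, d, hd, by rw [mt_mul, mt_uT hu, mul_assoc]⟩
    · obtain ⟨s, hs, rfl⟩ := trans u hu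
      rw [hu, mul_one] at hc
      obtain ⟨t', ht', h⟩ := norm _ (isom_qT (u := e 0) (c := c) (by rwa [ee, mul_one])) _
        (mul_mem (inv_mem hs) ht)
      refine ⟨s * t', mul_mem hs ht', c + d + c * d, by clear h; revert c d; decide, ?_⟩
      calc qT (mt s *ᵥ e 0) c * (mt t * qT (e 0) d)
          = (qT (mt s *ᵥ e 0) c * mt s) * mt (s⁻¹ * t) * qT (e 0) d := by
            rw [mul_assoc _ (mt s), ← mt_mul, mul_inv_cancel_left, mul_assoc]
        _ = mt s * (mt t' * qT (e 0) c) * qT (e 0) d := by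
            rw [← (isom_mt s).mul_qT, mul_assoc (mt s), h]
        _ = _ := by rw [mul_assoc, mul_assoc, qT_mul, ee, mul_one, mt_mul, mul_assoc]
  have main : ∀ (W : Submodule F4 (Fin (k + 4) → F4)) (A), Isom A → (∀ y ∈ W, A *ᵥ y = y) → P A := by
    intro W
    induction W using WellFoundedGT.induction with
    | ind W ih =>
    intro A hA hW
    by_cases h : ∀ v, hf (A *ᵥ v) (A *ᵥ v + v) = 0
    · refine ⟨1, one_mem _, 0, rfl, ?_⟩
      rw [qT_zero, mt_one, one_mul]
      have h2 : ∀ v, hf (A *ᵥ v + v) v = 0 := fun v => by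
        have := h v
        rw [map_add, hA] at this
        rw [map_add, LinearMap.add_apply, add_comm, this]
      refine mat_ext fun v => ?_
      rw [one_mulVec, ← add_left_inj v, vadd_self]
      refine hf_nondeg fun y => hf_comm.mp ?_
      have h3 := h2 (v + y)
      have h4 := h2 (v + F4.w • y)
      have h5 := h2 v
      have h6 := h2 y
      simp only [mulVec_add, mulVec_smul, map_add, map_smul, map_smulₛₗ, LinearMap.add_apply,
        LinearMap.smul_apply, smul_eq_mul] at h3 h4 h5 h6 ⊢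
      have h7 : fr F4.w - F4.w = 1 := by decide
      linear_combination h4 - F4.w * h3 - (1 - F4.w) * h5 - (F4.w * fr F4.w - F4.w) * h6 -
        (hf (A *ᵥ v) y + hf v y) * h7
    push Not at h
    obtain ⟨v, hv⟩ := h
    set u := A *ᵥ v + v with hu
    set a := hf (A *ᵥ v) u with ha
    have h2 : hf u u = a + fr a := by
      rw [ha, ← hf_swap, hu]
      simp only [map_add, LinearMap.add_apply, hA v v]
      ring
    have h3 : a⁻¹ + fr a⁻¹ + a⁻¹ * fr a⁻¹ * hf u u = 0 := by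
      rw [h2]
      exact (by decide : ∀ a : F4, a⁻¹ + fr a⁻¹ + a⁻¹ * fr a⁻¹ * (a + fr a) = 0 ∨ a = 0) a
        |>.resolve_right hv
    have hvW : v ∉ W := fun h => hv (by rw [ha, hu, hW v h, vadd_self, map_zero])
    have h4 := ih (W ⊔ Submodule.span F4 {v}) (by
      refine lt_of_le_of_ne le_sup_left fun h => hvW ?_
      rw [h]; exact Submodule.mem_sup_right (Submodule.mem_span_singleton_self v))
      (qT u a⁻¹ * A) ((isom_qT h3).mul hA) (by
        intro y hy0
        obtain ⟨y, hy, z, hz, rfl⟩ := Submodule.mem_sup.mp hy0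
        obtain ⟨c, rfl⟩ := Submodule.mem_span_singleton.mp hz
        rw [← mulVec_mulVec, mulVec_add, mulVec_smul, mulVec_add, mulVec_smul, hW y hy, qT_mulVec,
          qT_mulVec, ← ha, inv_mul_cancel₀ hv, one_smul, hu, ← add_assoc (A *ᵥ v), vadd_self,
          zero_add, map_add]
        conv_lhs => lhs; rhs; lhs; rhs; lhs; rw [← hW y hy, hA]
        rw [CharTwo.add_self_eq_zero, mul_zero, zero_smul, add_zero])
    have h5 := hP u (fr a⁻¹) _ (by rw [fr_fr]; linear_combination h3) h4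
    rwa [← mul_assoc, qT_mul, show fr a⁻¹ + a⁻¹ + fr a⁻¹ * a⁻¹ * hf u u = 0 by
      linear_combination h3, qT_zero, one_mul] at h5
  rw [eq_top_iff]
  intro g _
  obtain ⟨t, ht, c, -, h⟩ := main ⊥ _ (isom_mt g) (by simp)
  have h2 := congrArg det h
  rw [det_mul, det_mt, det_mt, det_qT, ee, one_mul, mul_one, left_eq_add] at h2
  rw [h2, qT_zero, mul_one] at h
  exact mt_inj h ▸ ht

end Cfsg.Agent.Lib.Fischer
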