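import Cfsg.Agent.Lib.Fischer.Rank3
import Cfsg.Agent.Lib.Fischer.SU2
import Cfsg.Agent.Lib.Forms.QuadMatrix
import Cfsg.Agent.Lib.GL.Mult

/-!
The orthogonal and unitary transvections over the fields with two and four elements as classes of
3-transpositions.
-/

set_option autoImplicit false

namespace Cfsg.Agent.Lib.Fischer

open Subgroup Module QuadraticMap Matrix Cfsg.Agent.Lib.Forms Cfsg.Agent.Spor
  Cfsg.Agent.Lib.GL.Herm

theorem cube_of_braid {G : Type*} [Group G] {a b : G} (ha : a * a = 1) (hb : b * b = 1)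
    (h : a * b * a = b * a * b) : (a * b) ^ 3 = 1 := by
  calc (a * b) ^ 3 = (a * b * a) * (b * a * b) := by rw [pow_succ, pow_two]; simp only [mul_assoc]
    _ = a * (b * (a * a) * b) * a := by rw [← h]; simp only [mul_assoc]
    _ = 1 := by rw [ha, mul_one, hb, mul_one, ha]

theorem class_of_equiv {G G' : Type*} [Group G] [Group G'] (e : G ≃* G') {D : Set G'}
    (hD : IsThreeTranspositionClass D) : IsThreeTranspositionClass (e ⁻¹' D) := by
  obtain ⟨d, hd, -⟩ := hD.2.1
  have := quot_class hD e.symm.toMonoidHom e.symm.surjective hd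
    (by simpa using ne_one hD.1 hd)
  convert this using 1
  ext x
  exact ⟨fun h => ⟨e x, h, by simp⟩, by rintro ⟨y, hy, rfl⟩; simpa using hy⟩

section Orth

variable {F V : Type*} [Field F] [AddCommGroup V] [Module F V] [FiniteDimensional F V]
  {Q : QuadraticForm F V}

theorem finrank_resSp_eq_one_iff (hQ : Nondeg Q) (g : OG Q) :
    finrank F (resSp g) = 1 ↔ ∃ v, Q v ≠ 0 ∧ g = refl Q v := by
  constructor
  · intro h
    obtain ⟨⟨v, hv⟩, hv0, hall⟩ := finrank_eq_one_iff'.mp h
    have hQv : Q v ≠ 0 := fun h0 => hv0 (Subtype.ext (hQ.eq_zero fun y => by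
      obtain ⟨c, hc⟩ := hall ⟨_, sub_mem_resSp g y⟩
      have hc' : c • v = g.1 y - y := congrArg Subtype.val hc
      rw [polar_comm]
      rcases eq_or_ne c 0 with rfl | hc0
      · exact polar_fix_res (by rw [zero_smul] at hc'; exact sub_eq_zero.mp hc'.symm) hv
      · have := polar_sub_self g y
        rw [← hc', Q_smul, h0, polar_smul_right, mul_zero, neg_zero, smul_eq_mul] at this
        exact (mul_eq_zero.mp this).resolve_left hc0))
    refine ⟨v, hQv, ?_⟩
    have h2 := hQ.finrank_res_refl_mul_of_mem hQv hv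
    rw [h, Nat.add_eq_right, Submodule.finrank_eq_zero] at h2
    have h3 : refl Q v * g = 1 := OG.ext' fun y => by
      have := sub_mem_resSp (refl Q v * g) y
      rw [h2, Submodule.mem_bot, sub_eq_zero] at this
      exact this
    rw [← refl_inv, eq_inv_of_mul_eq_one_right h3]
  · rintro ⟨v, hv, rfl⟩
    have := hQ.finrank_res_refl_mul_of_notMem (g := 1) hv (by
      rw [resSp_one, Submodule.mem_bot]; rintro rfl; exact hv (map_zero Q))
    rwa [mul_one, resSp_one, finrank_bot] at this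

end Orth

theorem refl_class {V : Type*} [AddCommGroup V] [Module (ZMod 2) V] [FiniteDimensional (ZMod 2) V]
    [Nontrivial V] {Q : QuadraticForm (ZMod 2) V} (hQ : Nondeg Q) (hN : NonExc Q) :
    IsThreeTranspositionClass {g : OG Q | ∃ v, Q v ≠ 0 ∧ g = refl Q v} := by
  have one : ∀ a : ZMod 2, a ≠ 0 → a = 1 := by decide
  have : Fact (Nat.Prime 2) := ⟨Nat.prime_two⟩
  have ne : ∀ v, Q v ≠ 0 → v ≠ 0 := fun v hv h => hv (by rw [h, map_zero])
  have neg : ∀ v : V, -v = v := fun v => by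
    rw [← neg_one_smul (ZMod 2), show (-1 : ZMod 2) = 1 from rfl, one_smul]
  refine ⟨⟨?_, ?_⟩, ?_, ?_⟩
  · rintro _ ⟨v, hv, rfl⟩
    refine orderOf_eq_prime (by rw [pow_two, refl_mul_self]) fun h => ?_
    have := (finrank_resSp_eq_one_iff hQ _).mpr ⟨v, hv, rfl⟩
    rw [h, resSp_one, finrank_bot] at this
    exact zero_ne_one this
  · rintro _ ⟨u, hu, rfl⟩ _ ⟨v, hv, rfl⟩
    have c1 := conj_refl (refl Q u) v
    have c2 := conj_refl (refl Q v) u
    rw [refl_inv, refl_apply, one _ hu] at c1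
    rw [refl_inv, refl_apply, one _ hv, polar_comm] at c2
    by_cases h : polar Q v u = 0
    · left
      rw [h, mul_zero, zero_smul, sub_zero] at c1
      rw [pow_two, ← mul_assoc, c1, refl_mul_self]
    · right
      rw [one _ h, inv_one, mul_one, one_smul, sub_eq_add_neg, neg] at c1 c2
      exact cube_of_braid (refl_mul_self _) (refl_mul_self _) (by rw [c1, c2, add_comm])
  · obtain ⟨u, hu⟩ := hQ.exists_Q_ne_zero
    refine ⟨_, ⟨u, hu, rfl⟩, Set.ext fun g => ⟨?_, fun h => ?_⟩⟩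
    · rintro ⟨v, hv, rfl⟩
      obtain ⟨A, hA⟩ := hQ.witt_one (ne u hu) (ne v hv) (by rw [one _ hu, one _ hv])
      exact isConj_iff.mpr ⟨A, by rw [conj_refl, hA]⟩
    · obtain ⟨A, rfl⟩ := isConj_iff.mp h
      exact ⟨_, by rw [A.2]; exact hu, conj_refl _ _⟩
  · rw [eq_top_iff]
    intro g _
    exact hQ.refl_induction hN 
      (fun g => g ∈ Subgroup.closure {g : OG Q | ∃ v, Q v ≠ 0 ∧ g = refl Q v}) (one_mem _)
      (fun v hv g hg => mul_mem (Subgroup.subset_closure ⟨v, hv, rfl⟩) hg) g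

theorem orth_class {ι : Type} [Fintype ι] [DecidableEq ι] [Nonempty ι]
    {Q : QuadraticForm (ZMod 2) (ι → ZMod 2)} (hQ : Nondeg Q) (hn : Fintype.card ι ≠ 4) :
    IsThreeTranspositionClass {g : isometryGroup (ZMod 2) Q |
      (((g : GL ι (ZMod 2)) : Matrix ι ι (ZMod 2)) - 1).rank = 1} := by
  have := class_of_equiv (toOG Q) (refl_class hQ (hQ.nonExc_of_finrank (by simpa using hn)))
  convert this using 1
  ext g
  rw [Set.mem_ofPred_eq, ← finrank_resSp_toOG, finrank_resSp_eq_one_iff hQ]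
  rfl

section Unit

variable {n : ℕ}

theorem rank_eq_one_iff (g : SU n F4 2) :
    (mt g - 1).rank = 1 ↔ ∃ v, v ≠ 0 ∧ hf v v = 0 ∧ g = uT v := by
  constructor
  · intro h
    obtain ⟨⟨v, y, hy⟩, hv, hall⟩ := finrank_eq_one_iff'.mp h
    have hv0 : v ≠ 0 := fun e => hv (Subtype.ext e)
    rw [mulVecLin_apply, sub_mulVec, one_mulVec] at hy
    have hall' : ∀ x, ∃ c : F4, mt g *ᵥ x = x + c • v := fun x => by
      obtain ⟨c, hc⟩ := hall ⟨_, x, rfl⟩
      have := congrArg Subtype.val hc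
      simp only [SetLike.val_smul, mulVecLin_apply, sub_mulVec, one_mulVec] at this
      exact ⟨c, by rw [this]; simp⟩
    have hy' : mt g *ᵥ y = y + v := by rw [← hy]; simp
    have key : ∀ x (c : F4), mt g *ᵥ x = x + c • v → hf x v = c * (hf v y + hf v v) := by
      intro x c hc
      have := isom_mt g x y
      rw [hc, hy'] at this
      simp only [map_add, map_smul, LinearMap.add_apply, LinearMap.smul_apply, smul_eq_mul] at this
      have h2 : (2 : F4) = 0 := rfl
      linear_combination this - (c * hf v y + c * hf v v) * h2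
    have h1 : hf v y + hf v v ≠ 0 := fun h0 => hv0 (hf_nondeg fun x => by
      obtain ⟨c, hc⟩ := hall' x
      rw [key x c hc, h0, mul_zero])
    have h2 : mt g = qT v (hf v y + hf v v)⁻¹ := mat_ext fun x => by
      obtain ⟨c, hc⟩ := hall' x
      rw [qT_mulVec, key x c hc, hc, mul_comm c, inv_mul_cancel_left₀ h1]
    have h3 : hf v v = 0 := by
      have := det_mt g
      rw [h2, det_qT, add_eq_left, mul_eq_zero] at this
      exact this.resolve_left (inv_ne_zero h1)
    have h4 := key y 1 (by rw [hy', one_smul])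
    rw [h3, add_zero] at h1 h2 h4
    rw [one_mul, hf_swap] at h4
    have h5 : hf v y = 1 := by
      generalize hf v y = a at h1 h4
      revert a; decide
    exact ⟨v, hv0, h3, mt_inj (by rw [h2, h5, inv_one, mt_uT h3])⟩
  · rintro ⟨v, hv, h0, rfl⟩
    have : LinearMap.range (mt (uT v) - 1).mulVecLin = Submodule.span F4 {v} := by
      apply le_antisymm
      · rintro _ ⟨x, rfl⟩
        rw [mulVecLin_apply, sub_mulVec, uT_mulVec h0, one_mulVec, add_sub_cancel_left]
        exact Submodule.smul_mem _ _ (Submodule.mem_span_singleton_self v)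
      · rw [Submodule.span_singleton_le_iff_mem]
        obtain ⟨x, hx⟩ : ∃ x, hf x v ≠ 0 := by
          by_contra hcon
          push Not at hcon
          exact hv (hf_nondeg hcon)
        refine ⟨(hf x v)⁻¹ • x, ?_⟩
        rw [map_smul, mulVecLin_apply, sub_mulVec, uT_mulVec h0, one_mulVec, add_sub_cancel_left,
          smul_smul, inv_mul_cancel₀ hx, one_smul]
    rw [Matrix.rank, this, finrank_span_singleton hv]

theorem conj_uT (g : SU n F4 2) {v : Fin n → F4} (h : hf v v = 0) :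
    g * uT v * g⁻¹ = uT (mt g *ᵥ v) := by rw [mul_uT g h, mul_inv_cancel_right]

theorem uT_braid {u v : Fin n → F4} (hu : hf u u = 0) (hv : hf v v = 0) (h : hf v u ≠ 0) :
    uT u * uT v * uT u = uT v * uT u * uT v := by
  have c1 := conj_uT (uT u) hv
  have c2 := conj_uT (uT v) hu
  rw [inv_eq_of_mul_eq_one_right (uT_mul_self hu), uT_mulVec hu] at c1
  rw [inv_eq_of_mul_eq_one_right (uT_mul_self hv), uT_mulVec hv, hf_swap v u] at c2
  have e : v + hf v u • u = hf v u • (u + fr (hf v u) • v) := by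
    have : hf v u * fr (hf v u) = 1 := by
      generalize hf v u = a at h
      revert a; decide
    rw [smul_add, smul_smul, this, one_smul, add_comm]
  rw [c1, c2, e, uT_smul _ h]
  rw [← hf_swap v u, ← uT_mulVec hv, isom_mt, hu]

theorem uT_commute {u v : Fin n → F4} (hu : hf u u = 0) (hv : hf v v = 0) (h : hf v u = 0) :
    Commute (uT u) (uT v) := by
  have := mul_uT (uT u) hv
  rwa [uT_mulVec hu, h, zero_smul, add_zero] at this

theorem exists_iso_nc {u v : Fin n → F4} (hu0 : u ≠ 0) (hv0 : v ≠ 0) (hu : hf u u = 0)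
    (h : hf u v = 0) : ∃ z, hf z z = 0 ∧ hf z u ≠ 0 ∧ hf z v ≠ 0 := by
  obtain ⟨z, h1, h2⟩ : ∃ z, hf z u ≠ 0 ∧ hf z v ≠ 0 := by
    obtain ⟨x, hx⟩ : ∃ x, hf x u ≠ 0 := not_forall.mp fun k => hu0 (hf_nondeg k)
    obtain ⟨y, hy⟩ : ∃ x, hf x v ≠ 0 := not_forall.mp fun k => hv0 (hf_nondeg k)
    by_cases k1 : hf x v = 0
    · by_cases k2 : hf y u = 0
      · exact ⟨x + y, by simpa [k2] using hx, by simpa [k1] using hy⟩
      · exact ⟨y, k2, hy⟩
    · exact ⟨x, hx, k1⟩
  obtain ⟨a, ha⟩ : ∃ a : F4, hf z z + fr a * hf z u + a * fr (hf z u) = 0 := by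
    have := hf_self z
    generalize hf z z = s at this
    generalize hf z u = t at h1
    revert s t; decide
  refine ⟨z + a • u, ?_, by simpa [hu] using h1, by simpa [h] using h2⟩
  simp only [map_add, map_smulₛₗ, LinearMap.add_apply, LinearMap.smul_apply, smul_eq_mul, hu,
    hf_swap z u, RingHom.id_apply]
  linear_combination ha

theorem su_class (hn : 4 ≤ n) :
    IsThreeTranspositionClass {g : SU n F4 2 | ∃ v, v ≠ 0 ∧ hf v v = 0 ∧ g = uT v} := by
  have : Fact (Nat.Prime 2) := ⟨Nat.prime_two⟩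
  have conj : ∀ u v : Fin n → F4, hf u u = 0 → hf v v = 0 → hf v u ≠ 0 → IsConj (uT u) (uT v) :=
    fun u v hu hv h => isConj_iff.mpr ⟨uT u * uT v, by
      rw [mul_inv_eq_iff_eq_mul, uT_braid hu hv h, mul_assoc]⟩
  refine ⟨⟨?_, ?_⟩, ?_, closure_uT hn⟩
  · rintro _ ⟨v, hv, h0, rfl⟩
    refine orderOf_eq_prime (by rw [pow_two, uT_mul_self h0]) fun h => ?_
    have := (rank_eq_one_iff _).mpr ⟨v, hv, h0, rfl⟩
    rw [h, mt_one, sub_self, rank_zero] at this
    exact zero_ne_one this
  · rintro _ ⟨u, -, hu, rfl⟩ _ ⟨v, -, hv, rfl⟩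
    by_cases h : hf v u = 0
    · left
      rw [(uT_commute hu hv h).mul_pow, pow_two, pow_two, uT_mul_self hu, uT_mul_self hv, one_mul]
    · exact Or.inr (cube_of_braid (uT_mul_self hu) (uT_mul_self hv) (uT_braid hu hv h))
  · obtain ⟨m, rfl⟩ := Nat.exists_eq_add_of_le' (show 2 ≤ n by omega)
    let u : Fin (m + 2) → F4 := Pi.single 0 1 + Pi.single 1 1
    have hu0 : u ≠ 0 := fun h => by simpa [u] using congrFun h 0
    have hu : hf u u = 0 := by
      simp [u, hf_single]
      rfl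
    refine ⟨_, ⟨u, hu0, hu, rfl⟩, Set.ext fun g => ⟨?_, fun h => ?_⟩⟩
    · rintro ⟨v, hv0, hv, rfl⟩
      by_cases h : hf u v = 0
      · obtain ⟨z, h1, h2, h3⟩ := exists_iso_nc hu0 hv0 hu h
        exact (conj u z hu h1 h2).trans (conj v z hv h1 h3).symm
      · exact (conj v u hv hu h).symm
    · obtain ⟨A, rfl⟩ := isConj_iff.mp h
      refine ⟨_, fun h => hu0 ?_, by rw [isom_mt, hu], conj_uT _ hu⟩
      rw [← one_mulVec u, ← mt_one, ← inv_mul_cancel A, mt_mul, ← mulVec_mulVec, h, mulVec_zero]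

/-- change of field along an isomorphism -/
def suMap {F K : Type*} [Field F] [Field K] (φ : F ≃+* K) (q : ℕ) : SU n F q →* SU n K q :=
  ((SpecialLinearGroup.map φ.toRingHom).comp (SU n F q).subtype).codRestrict (SU n K q) fun g => by
    intro u v
    obtain ⟨u, rfl⟩ : ∃ u', φ ∘ u' = u := ⟨φ.symm ∘ u, funext fun i => by simp⟩
    obtain ⟨v, rfl⟩ : ∃ u', φ ∘ u' = v := ⟨φ.symm ∘ v, funext fun i => by simp⟩
    have e : ∀ w : Fin n → F, (g.1.1.map φ) *ᵥ (φ ∘ w) = φ ∘ (g.1.1 *ᵥ w) := fun w => by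
      ext i; simp [mulVec, dotProduct]
    have e2 : ∀ u v : Fin n → F, hermForm n K q (φ ∘ u) (φ ∘ v) = φ (hermForm n F q u v) :=
      fun u v => by simp [hermForm]
    change hermForm n K q (g.1.1.map φ *ᵥ _) (g.1.1.map φ *ᵥ _) = _
    rw [e, e, e2, e2]
    exact congrArg φ (g.2 u v)

/-- change of field along an isomorphism -/
def suEquiv {F K : Type*} [Field F] [Field K] (φ : F ≃+* K) (q : ℕ) : SU n F q ≃* SU n K q :=
  MonoidHom.toMulEquiv (suMap φ q) (suMap φ.symm q)
    (MonoidHom.ext fun g => Subtype.ext (Subtype.ext (Matrix.ext fun i j => φ.symm_apply_apply _)))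
    (MonoidHom.ext fun g => Subtype.ext (Subtype.ext (Matrix.ext fun i j => φ.apply_symm_apply _)))

theorem su_class' {F : Type*} [Field F] [Fintype F] (hF : Fintype.card F = 4) (hn : 4 ≤ n) :
    IsThreeTranspositionClass {g : SU n F 2 |
      (((g : SpecialLinearGroup (Fin n) F) : Matrix (Fin n) (Fin n) F) - 1).rank = 1} := by
  let φ : F ≃+* F4 := FiniteField.ringEquivOfCardEq (hF.trans F4.card_eq.symm)
  convert class_of_equiv (suEquiv φ 2) (su_class hn) using 1
  ext g
  rw [Set.mem_preimage, Set.mem_ofPred_eq, Set.mem_ofPred_eq, ← rank_eq_one_iff,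
    ← GL.Mult.rank_map_eq φ.toRingHom, ← RingHom.mapMatrix_apply, map_sub, map_one]
  rfl

end Unit

end Cfsg.Agent.Lib.Fischer
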