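import Cfsg.Agent.Lib.Fischer.Unit2

set_option autoImplicit false

/-! # Fischer's theory of 3-transpositions: the unitary case, identification -/

namespace Cfsg.Agent.Lib.Fischer

open Subgroup Cfsg.Agent.Lib.Core Cfsg.Agent.Lib.Invol Equiv Cfsg.Agent.Spor Matrix
open scoped Pointwise commutatorElement

variable {G : Type*} [Group G]

def RR (D : Set G) (x b : G) (p : G → F4 → G) {n : ℕ} (a : G → Fin n → F4) (d : G)
    (y : Fin n → F4) : Prop :=
  (d = x ∧ y = a x) ∨ (∃ w ∈ ZZ D x b, ∃ c, d = p w c ∧ y = a w + fr c • a x) ∨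
    ∃ q ∈ Submonoid.closure (PP D x b p a), d = cj q.g b ∧ y = a b + q.m + q.γ • a x

variable [Finite G]

namespace UM
variable {D : Set G} {x b : G} {p : G → F4 → G} {n : ℕ} {a : G → Fin n → F4} (h : UM D x b p a)
include h

theorem RR_total {d : G} (hd : d ∈ D) : ∃ y, RR D x b p a d y := by
  by_cases h1 : d = x
  · exact ⟨_, Or.inl ⟨h1, rfl⟩⟩
  by_cases h2 : Commute x d
  · obtain ⟨w, hw, c, e⟩ := h.exists_p ⟨hd, h1, h2⟩
    exact ⟨_, Or.inr (Or.inl ⟨w, hw, c, e, rfl⟩)⟩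
  · obtain ⟨q, hq, e⟩ := h.trans hd h2
    exact ⟨_, Or.inr (Or.inr ⟨q, hq, e, rfl⟩)⟩

omit [Finite G] in
theorem RR_mem {d : G} {y : Fin n → F4} (hr : RR D x b p a d y) : d ∈ D := by
  rcases hr with ⟨rfl, -⟩ | ⟨w, hw, c, rfl, -⟩ | ⟨q, -, rfl, -⟩
  exacts [h.hx, (h.p_perp hw c).1, cj_mem_D h.toBase.cl h.hb _]

theorem RR_perp {d d' : G} {y y' : Fin n → F4} (hr : RR D x b p a d y) (hr' : RR D x b p a d' y') :
    hf y y' = 0 ↔ Commute d d' := by
  have ew : ∀ w ∈ ZZ D x b, hf (a x) (a w) = 0 := fun w hw => hf_comm.mp (h.we w hw)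
  have fw : ∀ w ∈ ZZ D x b, hf (a b) (a w) = 0 := fun w hw => hf_comm.mp (h.wf w hw)
  have k12 : ∀ w ∈ ZZ D x b, ∀ c, hf (a w + fr c • a x) (a x) = 0 ↔ Commute (p w c) x :=
    fun w hw c => by simp [h.we w hw, h.ee, (h.p_perp hw c).2.2.symm]
  have k13 : ∀ q ∈ Submonoid.closure (PP D x b p a),
      hf (a b + q.m + q.γ • a x) (a x) = 0 ↔ Commute (cj q.g b) x := fun q hq => by
    have := h.mu_cl hq
    simp only [map_add, map_smul, LinearMap.add_apply, LinearMap.smul_apply, this.me, h.ee, h.fe,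
      smul_zero, add_zero, one_ne_zero, false_iff]
    exact fun h1 => h.hxb (commute_of_cj this.cx.symm h1.symm)
  have k23 : ∀ q ∈ Submonoid.closure (PP D x b p a), ∀ w ∈ ZZ D x b, ∀ c,
      hf (a b + q.m + q.γ • a x) (a w + fr c • a x) = 0 ↔ Commute (cj q.g b) (p w c) :=
    fun q hq w hw c => by
      have := h.mu_cl hq
      rw [← commute_cj (g := q.g⁻¹), cj_inv_cj, this.inv.act w hw, h.p_comm_b hw]
      simp [this.me, h.ee, h.fe, ew w hw, fw w hw, fr_fr, add_comm]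
  rcases hr with ⟨rfl, rfl⟩ | ⟨w, hw, c, rfl, rfl⟩ | ⟨q, hq, rfl, rfl⟩ <;>
    rcases hr' with ⟨e, rfl⟩ | ⟨w', hw', c', rfl, rfl⟩ | ⟨q', hq', rfl, rfl⟩
  · simp [e, h.ee]
  · rw [hf_comm, Commute.symm_iff]; exact k12 w' hw' c'
  · rw [hf_comm, Commute.symm_iff]; exact k13 q' hq'
  · rw [e]; exact k12 w hw c
  · rw [h.p_comm_iff hw hw', ← h.gc w hw w' hw']
    simp [h.we w hw, ew w' hw', h.ee]
  · rw [hf_comm, Commute.symm_iff]; exact k23 q' hq' w hw c
  · rw [e]; exact k13 q hq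
  · exact k23 q hq w' hw' c'
  · obtain ⟨r, hr, e⟩ := h.exists_inv hq'
    have e1 := congrArg Tr.g e
    have e2 := congrArg Tr.m e
    have e3 := congrArg Tr.γ e
    simp only [Tr.mul_g, Tr.mul_m, Tr.mul_γ, Tr.one_g, Tr.one_m, Tr.one_γ] at e1 e2 e3
    have e4 : r.m = q'.m := by rw [← add_zero r.m, ← vadd_self q'.m, ← add_assoc, e2, zero_add]
    rw [← commute_cj (g := r.g), ← cj_mul, ← cj_mul, e1, cj_one, ← Tr.mul_g, h.K (mul_mem hr hq),
      Tr.mul_γ, e4]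
    have m := h.mu_cl hq
    have m' := h.mu_cl hq'
    rw [e4, ← (h.sq_cl hq').2] at e3
    simp only [map_add, map_smul, map_smulₛₗ, LinearMap.add_apply, LinearMap.smul_apply, m.me, m.mf,
      hf_comm.mp m'.me, hf_comm.mp m'.mf, h.ee, h.ff, h.ef, h.fe, smul_eq_mul, mul_zero, mul_one,
      add_zero, zero_add]
    generalize hf q.m q'.m = s
    generalize q.γ = t
    generalize q'.γ = u at e3
    generalize r.γ = v at e3
    revert s t u v; decide

theorem RR_ne {d : G} {y : Fin n → F4} (hr : RR D x b p a d y) : y ≠ 0 := by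
  obtain ⟨e, he, hde⟩ := h.fi.exists_nc (h.RR_mem hr)
  obtain ⟨y', hy'⟩ := h.RR_total he
  exact fun h1 => hde ((h.RR_perp hr hy').mp (by simp [h1]))

theorem RR_unique {d : G} {y y' : Fin n → F4} (hr : RR D x b p a d y) (hr' : RR D x b p a d y') :
    y = y' := by
  have k := (h.RR_perp hr hr').mpr (Commute.refl d)
  have n1 : ∀ q ∈ Submonoid.closure (PP D x b p a), ¬ Commute x (cj q.g b) := fun q hq h1 =>
    h.hxb (commute_of_cj (h.mu_cl hq).cx.symm h1)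
  rcases hr with ⟨rfl, rfl⟩ | ⟨w, hw, c, rfl, rfl⟩ | ⟨q, hq, rfl, rfl⟩ <;>
    rcases hr' with ⟨e, rfl⟩ | ⟨w', hw', c', e, rfl⟩ | ⟨q', hq', e, rfl⟩
  · rfl
  · exact absurd e.symm (h.p_perp hw' c').2.1
  · exact absurd (e ▸ Commute.refl d) (n1 q' hq')
  · exact absurd e (h.p_perp hw c).2.1
  · have pw := h.toBase.Z_perp hw
    have pw' := h.toBase.Z_perp hw'
    have m := (h.par w hw).mem c
    have m' := (h.par w' hw').mem c'
    rw [← e] at m'
    have l := h.fi.line_unique (h.toBase.isLine pw) (h.toBase.isLine pw') (left_mem_line h.hx) m.1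
      (left_mem_line h.hx) m'.1 m.2.symm
    obtain rfl : w = w' := h.toBase.eq_of_comm pw (Base.self_mem_ls pw)
      ⟨l ▸ right_mem_line hw'.1, pw'.2.1⟩ h.hb (fun h' => h.hxb h'.symm) hw.2.2 hw'.2.2
    rw [(h.par w hw).inj e]
  · exact absurd (e ▸ (h.p_perp hw c).2.2) (n1 q' hq')
  · exact absurd (e ▸ Commute.refl x) (n1 q hq)
  · exact absurd (e ▸ (h.p_perp hw' c').2.2) (n1 q hq)
  · have m := h.mu_cl hq
    have m' := h.mu_cl hq'
    have e2 := (h.reg' m m' e).2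
    have e3 := (h.sq_cl hq).2
    rw [← e2] at k ⊢
    simp only [map_add, map_smul, map_smulₛₗ, LinearMap.add_apply, LinearMap.smul_apply, m.me, m.mf,
      hf_comm.mp m.me, hf_comm.mp m.mf, h.ee, h.ff, h.ef, h.fe, smul_eq_mul, mul_zero, mul_one,
      add_zero, zero_add, ← e3] at k
    congr 2
    generalize q.γ = t at k
    generalize q'.γ = u at k
    revert t u; decide

theorem RR_surj {y : Fin n → F4} (h0 : y ≠ 0) (hy : hf y y = 0) :
    ∃ d y', ∃ l : F4, l ≠ 0 ∧ RR D x b p a d y' ∧ y = l • y' := by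
  have key : ∀ y : Fin n → F4, hf (y + hf y (a x) • a b + hf y (a b) • a x) (a x) = 0 ∧
      hf (y + hf y (a x) • a b + hf y (a b) • a x) (a b) = 0 := fun y => by
    simp [h.ee, h.ff, h.ef, h.fe, CharTwo.add_self_eq_zero]
  by_cases h1 : hf y (a x) = 0
  · obtain ⟨k1, k2⟩ := key y
    rw [h1, zero_smul, add_zero] at k1 k2
    obtain ⟨w, hw, c, e⟩ := h.R4 k1 k2 (by simp [hy, h1, hf_comm.mp h1, h.ee])
    have e' : y = c • a w + hf y (a b) • a x := by rw [← e, add_assoc, vadd_self, add_zero]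
    by_cases hc : c = 0
    · rw [hc, zero_smul, zero_add] at e'
      exact ⟨x, _, _, fun h2 => h0 (by rw [e', h2, zero_smul]), Or.inl ⟨rfl, rfl⟩, e'⟩
    · refine ⟨_, _, c, hc, Or.inr (Or.inl ⟨w, hw, fr (c⁻¹ * hf y (a b)), rfl, rfl⟩), ?_⟩
      rw [fr_fr, smul_add, smul_smul, mul_inv_cancel_left₀ hc, ← e']
  suffices ∀ y : Fin n → F4, hf y y = 0 → hf y (a x) = 1 → ∃ d, RR D x b p a d y by
    obtain ⟨d, hd⟩ := this ((hf y (a x))⁻¹ • y) (by simp [hy]) (by simp [h1])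
    exact ⟨d, _, _, h1, hd, by rw [smul_smul, mul_inv_cancel₀ h1, one_smul]⟩
  intro y hy h1
  obtain ⟨k1, k2⟩ := key y
  rw [h1, one_smul] at k1 k2
  obtain ⟨q, hq, e⟩ := h.exists_cl k1 k2
  have e' : y = a b + q.m + hf y (a b) • a x := by
    rw [e, add_assoc, add_assoc, vadd_self, add_zero, add_comm y, ← add_assoc, vadd_self, zero_add]
  have e3 := (h.sq_cl hq).2
  have e4 : hf q.m q.m = tr (hf y (a b)) := by
    rw [e]
    simp only [map_add, map_smul, map_smulₛₗ, LinearMap.add_apply, LinearMap.smul_apply, hy, h1,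
      hf_swap y (a x), hf_swap y (a b), h.ee, h.ff, h.ef, h.fe, smul_eq_mul, map_one]
    generalize hf y (a b) = s
    revert s; decide
  obtain e5 | e5 : hf y (a b) = q.γ ∨ hf y (a b) = 1 + q.γ := by
    rw [e4] at e3
    generalize hf y (a b) = s at e3
    generalize q.γ = t at e3
    revert s t; decide
  · exact ⟨_, Or.inr (Or.inr ⟨q, hq, rfl, by rw [← e5, ← e']⟩)⟩
  · exact ⟨_, Or.inr (Or.inr ⟨_, mul_mem (Submonoid.subset_closure h.x_mem_PP) hq, rfl, by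
      simp only [Tr.mul_m, Tr.mul_γ, zero_add, map_zero, add_zero]; rw [← e5, ← e']⟩)⟩

theorem hyp_line {d d' c : G} (hd : d ∈ D) (hd' : d' ∈ D) (hn : ¬ Commute d d') (hc : c ∈ D)
    (hdc : ¬ Commute d c) (k : ∀ w ∈ D, Commute d w → Commute d' w → Commute c w) :
    c = d' ∨ c = cj d d' := by
  have hD := h.toBase.cl
  obtain ⟨g, rfl, rfl⟩ := h.fi.pair_nc h.hx h.hb h.hxb hd hd' hn
  obtain ⟨c, rfl⟩ : ∃ c', c = cj g c' := ⟨_, (cj_cj_inv g c).symm⟩
  rw [cj_cj_cj, cj_inj, cj_inj]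
  rw [commute_cj] at hdc
  rw [cj_mem_D_iff hD] at hc
  obtain ⟨q, hq, rfl⟩ := h.trans hc hdc
  have m := h.mu_cl hq
  have hm : q.m = 0 := h.vext m.me m.mf fun w hw => by
    have := commute_cj.mp (k _ (cj_mem_D hD hw.1 g) (commute_cj.mpr hw.2.1) (commute_cj.mpr hw.2.2))
    rw [← commute_cj (g := q.g⁻¹), cj_inv_cj] at this
    have e := m.inv.act w hw 0
    rw [(h.par w hw).zero, zero_add] at e
    rwa [e, h.p_comm_b hw] at this
  obtain ⟨w, hw, c, i, hi, e1, e2⟩ := h.K2 m (by rw [(h.sq_cl hq).1, hm, map_zero, xp_zero])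
  have hc0 : c = 0 := by
    by_contra h1
    have := h.RR_ne (Or.inr (Or.inl ⟨w, hw, 0, rfl, rfl⟩))
    rw [hm, eq_comm, smul_eq_zero] at e2
    simp [e2.resolve_left h1] at this
  rw [e1, hc0, h.sw_zero hw, mul_one]
  rcases hi with rfl | rfl
  · exact Or.inl (cj_one b)
  · exact Or.inr rfl

theorem four_le : 4 ≤ n := by
  obtain ⟨w, hw⟩ := h.toBase.Z_nonempty
  obtain ⟨w', hw', h1, -⟩ := h.toBase.exists_nbr hw hw (Commute.refl w)
  have h2 : hf (a w) (a w') ≠ 0 := fun e => h1 ((h.gc w hw w' hw').mp e)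
  have h3 : hf (a w') (a w) ≠ 0 := fun e => h2 (hf_comm.mp e)
  have : LinearIndependent F4 ![a x, a b, a w, a w'] := by
    rw [Fintype.linearIndependent_iff]
    intro c hc
    have k := fun u => congrArg (fun y => hf y u) hc
    have k1 := k (a x)
    have k2 := k (a b)
    have k3 := k (a w)
    have k4 := k (a w')
    simp [Fin.sum_univ_four, h.ee, h.ff, h.ef, h.fe, h.we w hw, h.we w' hw', h.wf w hw, h.wf w' hw',
      hf_comm.mp (h.we w hw), hf_comm.mp (h.we w' hw'), hf_comm.mp (h.wf w hw),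
      hf_comm.mp (h.wf w' hw'), h.ww hw, h.ww hw', h2, h3] at k1 k2 k3 k4
    intro i
    fin_cases i <;> assumption
  simpa using this.fintype_card_le_finrank

end UM

theorem Base.exists_u_model {D : Set G} {x b : G} (hB : Base D x b) :
    ∃ (n : ℕ) (v : G → Fin n → F4), 4 ≤ n ∧ (∀ d ∈ D, v d ≠ 0) ∧
      (∀ d ∈ D, ∀ e ∈ D, hf (v d) (v e) = 0 ↔ Commute d e) ∧
      (∀ y, y ≠ 0 → hf y y = 0 → ∃ d ∈ D, ∃ l : F4, l ≠ 0 ∧ y = l • v d) ∧
      (∀ d ∈ D, ∀ e ∈ D, ∃ l : F4, l ≠ 0 ∧ v e + hf (v e) (v d) • v d = l • v (cj d e)) ∧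
      Nonempty (G ≃* PSU n F4 2) := by
  obtain ⟨p, n, a, h⟩ := hB.exists_um
  have hD := hB.cl
  have : ∀ d, ∃ y, d ∈ D → RR D x b p a d y := fun d => by
    by_cases hd : d ∈ D
    · obtain ⟨y, hy⟩ := h.RR_total hd
      exact ⟨y, fun _ => hy⟩
    · exact ⟨0, fun h => absurd h hd⟩
  choose v hv using this
  have h1 : ∀ d ∈ D, v d ≠ 0 := fun d hd => h.RR_ne (hv d hd)
  have h2 : ∀ d ∈ D, ∀ e ∈ D, hf (v d) (v e) = 0 ↔ Commute d e :=
    fun d hd e he => h.RR_perp (hv d hd) (hv e he)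
  have h0 : ∀ d ∈ D, hf (v d) (v d) = 0 := fun d hd => (h2 d hd d hd).mpr (Commute.refl d)
  have h3 : ∀ y, y ≠ 0 → hf y y = 0 → ∃ d ∈ D, ∃ l : F4, l ≠ 0 ∧ y = l • v d := fun y k1 k2 => by
    obtain ⟨d, y', l, hl, hr, e⟩ := h.RR_surj k1 k2
    exact ⟨d, h.RR_mem hr, l, hl, by rw [e, h.RR_unique hr (hv d (h.RR_mem hr))]⟩
  have h4 : ∀ d ∈ D, ∀ e ∈ D, ∃ l : F4, l ≠ 0 ∧ mt (uT (v d)) *ᵥ v e = l • v (cj d e) := by
    intro d hd e he
    by_cases hc : Commute d e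
    · exact ⟨1, one_ne_zero, by
        rw [uT_mulVec (h0 d hd), (h2 e he d hd).mpr hc.symm, cj_of_commute hc]; simp⟩
    have n1 : hf (v e) (v d) ≠ 0 := fun k => hc ((h2 e he d hd).mp k).symm
    have k1 : hf (mt (uT (v d)) *ᵥ v e) (v d) = hf (v e) (v d) := by
      simp [uT_mulVec (h0 d hd), h0 d hd]
    obtain ⟨c, hc1, l, hl, k2⟩ := h3 (mt (uT (v d)) *ᵥ v e) (fun k => n1 (by rw [← k1, k]; simp))
      (by rw [isom_mt, h0 e he])
    have k3 : ∀ w ∈ D, Commute d w → (Commute c w ↔ Commute e w) := fun w hw hdw => by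
      rw [← h2 c hc1 w hw, ← h2 e he w hw, ← mul_eq_zero_iff_left hl, ← smul_eq_mul,
        ← LinearMap.smul_apply, ← map_smul, ← k2, uT_mulVec (h0 d hd)]
      simp [(h2 d hd w hw).mpr hdw]
    rcases h.hyp_line hd he hc hc1 (fun k => hc ((k3 d hd (Commute.refl d)).mp k.symm).symm)
      (fun w hw k k' => (k3 w hw k).mpr k') with rfl | rfl
    · exfalso
      rw [k2, map_smul, LinearMap.smul_apply, smul_eq_mul, mul_eq_right₀ n1] at k1
      rw [k1, one_smul, uT_mulVec (h0 d hd), add_eq_left, smul_eq_zero] at k2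
      exact h1 d hd (k2.resolve_left n1)
    · exact ⟨l, hl, k2⟩
  refine ⟨n, v, h.four_le, h1, h2, h3, fun d hd e he => by
    rw [← uT_mulVec (h0 d hd)]; exact h4 d hd e he, ?_⟩
  let S : Set (G × SU n F4 2) := (fun d => (d, uT (v d))) '' D
  have hS : ∀ q ∈ closure S, ∀ e ∈ D, ∃ l : F4, l ≠ 0 ∧ mt q.2 *ᵥ v e = l • v (cj q.1 e) := by
    have step : ∀ d ∈ D, ∀ q : G × SU n F4 2,
        (∀ e ∈ D, ∃ l : F4, l ≠ 0 ∧ mt q.2 *ᵥ v e = l • v (cj q.1 e)) → ∀ e ∈ D, ∃ l : F4, l ≠ 0 ∧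
        mt ((d, uT (v d)) * q).2 *ᵥ v e = l • v (cj ((d, uT (v d)) * q).1 e) := by
      intro d hd q ih e he
      obtain ⟨l, hl, k⟩ := ih e he
      obtain ⟨l', hl', k'⟩ := h4 d hd _ (cj_mem_D hD he q.1)
      exact ⟨l * l', mul_ne_zero hl hl', by
        rw [Prod.snd_mul, Prod.fst_mul, mt_mul, ← mulVec_mulVec, k, mulVec_smul, k', cj_mul,
          smul_smul]⟩
    intro q hq
    refine closure_induction_left (p := fun q _ => ∀ e ∈ D, ∃ l : F4, l ≠ 0 ∧
      mt q.2 *ᵥ v e = l • v (cj q.1 e)) (fun e he => ⟨1, one_ne_zero, by simp [mt_one]⟩) ?_ ?_ hq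
    all_goals rintro _ ⟨d, hd, rfl⟩ q _ ih
    · exact step d hd q ih
    · have e0 : (d, uT (v d))⁻¹ = (d, uT (v d)) := inv_eq_of_mul_eq_one_right
        (Prod.ext (threeTransp_mul_self hD.1 hd) (uT_mul_self (h0 d hd)))
      show ∀ e ∈ D, ∃ l : F4, l ≠ 0 ∧ mt ((d, uT (v d))⁻¹ * q).2 *ᵥ v e =
        l • v (cj ((d, uT (v d))⁻¹ * q).1 e)
      rw [e0]
      exact step d hd q ih
  have hgen : closure (Prod.snd '' S) = ⊤ := by
    rw [eq_top_iff, ← closure_uT h.four_le]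
    refine closure_mono ?_
    rintro _ ⟨y, k1, k2, rfl⟩
    obtain ⟨d, hd, l, hl, rfl⟩ := h3 y k1 k2
    exact ⟨_, ⟨d, hd, rfl⟩, (uT_smul (h0 d hd) hl).symm⟩
  have hker : ∀ g, (g, 1) ∈ closure S → g = 1 := fun g hg =>
    eq_one_of_commute hD hB.cen fun d hd => by
      obtain ⟨l, hl, k⟩ := hS _ hg d hd
      rw [mt_one, one_mulVec] at k
      refine cj_eq_self_iff.mp (hB.fi.eq_of_pair (cj_mem_D hD hd g) hd fun w hw _ _ => ?_)
      rw [← h2 _ (cj_mem_D hD hd g) w hw, ← h2 d hd w hw, k]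
      simp [hl]
  refine iso_of_graph (closure S) (exists_snd_of_closure (by
      rw [Set.image_image]; simpa using hD.2.2)) (exists_fst_of_closure hgen) hker _
      fun A => ⟨fun hA => ?_, fun hA => ?_⟩
  · rw [mem_center_iff]
    intro B
    have : closure (Prod.snd '' S) ≤ centralizer {A} := by
      rw [closure_le]
      rintro _ ⟨_, ⟨d, hd, rfl⟩, rfl⟩
      obtain ⟨l, hl, k⟩ := hS _ hA d hd
      refine mem_centralizer_singleton_iff.mpr ?_
      rw [mul_uT A (h0 d hd), k, cj_one, uT_smul (h0 d hd) hl]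
    exact mem_centralizer_singleton_iff.mp (this (hgen ▸ mem_top B))
  · obtain ⟨g, hg⟩ := exists_fst_of_closure hgen A
    rwa [eq_one_of_commute hD hB.cen (g := g) fun d hd => ?_] at hg
    have m : (d, uT (v d)) ∈ closure S := subset_closure ⟨d, hd, rfl⟩
    have := mul_mem (mul_mem (mul_mem hg m) (inv_mem hg)) (inv_mem m)
    rw [Prod.inv_mk, Prod.inv_mk, Prod.mk_mul_mk, Prod.mk_mul_mk, Prod.mk_mul_mk,
      ← mem_center_iff.mp hA, mul_inv_cancel_right, mul_inv_cancel] at this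
    exact commutatorElement_eq_one_iff_commute.mp (hker _ this)

theorem Fi.thin_or_base {D : Set G} (hF : Fi D) (hT : Thick D) (hZ : center G = ⊥) :
    Thin D ∨ ∃ x b, Base D x b := by
  refine or_iff_not_imp_left.mpr fun h => ?_
  simp only [Thin, not_forall] at h
  obtain ⟨l, hl, x, hx, z, hz, u, hu, v, hv, h1, h2, h3, h4, h5, h6⟩ := h
  obtain ⟨d, hd, k1, k2, k3, k4, k5⟩ := hF.subset_five hT hl hx hz hu hv h1 h2 h3 h4 h5 h6
  obtain ⟨b, hb, hxb⟩ := hF.exists_nc (hl.sub hx)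
  refine ⟨x, b, hF, hT, fun l' hl' => ?_, hZ, hl.sub hx, hb, hxb⟩
  rw [hF.line_ncard hl' hl, show l = {x, z, u, v, d} from Set.ext fun y => ⟨k5 y, by
    rintro (rfl | rfl | rfl | rfl | rfl) <;> assumption⟩]
  rw [Set.ncard_insert_of_notMem (by simp [h1, h2.symm, h4.symm, k1.symm]),
    Set.ncard_insert_of_notMem (by simp [h3.symm, h5.symm, k2.symm]),
    Set.ncard_insert_of_notMem (by simp [Ne.symm h6, k3.symm]), Set.ncard_pair k4.symm]

theorem center_eq_bot_of_hsol (hsol : ∀ N : Subgroup G, N.Normal → Group.IsSolvable N → N = ⊥) :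
    center G = ⊥ :=
  hsol _ inferInstance (by have := isNilpotent_of_isMulCommutative (H := center G) inferInstance
                           infer_instance)

end Cfsg.Agent.Lib.Fischer
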