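import Cfsg.Agent.Lib.Fischer.Symp
import Cfsg.Agent.Lib.Fischer.Unit3
import Cfsg.Agent.Lib.Core.Components

/-!
Fischer groups in which the transpositions commuting with a given one generate a solvable group.
-/

set_option autoImplicit false

namespace Cfsg.Agent.Lib.Fischer

open Subgroup Cfsg.Agent.Lib.Core Cfsg.Agent.Lib.Invol Equiv Cfsg.Agent.Lib.GL.Alt Matrix
  Cfsg.Agent.Spor Cfsg.Agent.Lib.GL.Herm
open scoped Pointwise commutatorElement

variable {G : Type*} [Group G]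

theorem injective_of_nc {n : ℕ} (hn : 5 ≤ n) (φ : Perm (Fin n) →* G) {i j k : Fin n}
    (hij : i ≠ j) (hjk : j ≠ k) (h : ¬ Commute (φ (swap i j)) (φ (swap j k))) :
    Function.Injective φ := by
  rw [← MonoidHom.ker_eq_bot_iff]
  by_contra h1
  have := Perm.alternatingGroup_le_of_normal (α := Fin n) (by simpa using hn) (N := φ.ker)
    ((nontrivial_iff_ne_bot _).mpr h1)
  have h2 : swap i j * swap j k ∈ φ.ker := this (Perm.mem_alternatingGroup.mpr (by
    rw [map_mul, Perm.sign_swap hij, Perm.sign_swap hjk]; simp))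
  rw [MonoidHom.mem_ker, map_mul, mul_eq_one_iff_eq_inv] at h2
  exact h (h2 ▸ (Commute.refl _).inv_left)

theorem chain_not_solvable {D : Set G} (hD : IsThreeTranspositionClass D) {x a b c d : G}
    (ha : a ∈ D) (hb : b ∈ D) (hc : c ∈ D) (hd : d ∈ D) (hab : ¬ Commute a b)
    (hbc : ¬ Commute b c) (hcd : ¬ Commute c d) (hac : Commute a c) (had : Commute a d)
    (hbd : Commute b d) (h1 : Commute x a) (h2 : Commute x b) (h3 : Commute x c)
    (h4 : Commute x d) : ¬ Group.IsSolvable (closure (perp D x)) := by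
  intro hs
  obtain ⟨φ, e1, e2, e3, e4⟩ := exists_A4 (threeTransp_mul_self hD.1 ha)
    (threeTransp_mul_self hD.1 hb) (threeTransp_mul_self hD.1 hc) (threeTransp_mul_self hD.1 hd)
    (threeTransp_braid hD.1 ha hb hab) (threeTransp_braid hD.1 hb hc hbc)
    (threeTransp_braid hD.1 hc hd hcd) hac had hbd
  have hinj := injective_of_nc le_rfl φ (i := 0) (j := 1) (k := 2) (by decide) (by decide)
    (by rwa [e1, e2])
  have hle : ∀ σ, φ σ ∈ closure (perp D x) := by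
    have : (⊤ : Subgroup (Perm (Fin 5))) ≤ (closure (perp D x)).comap φ := by
      have m1 : swap 0 1 ∈ (closure (perp D x)).comap φ :=
        subset_closure (show φ _ ∈ _ from e1 ▸ ⟨ha, fun h => hab (h ▸ h2), h1⟩)
      have m2 : swap 1 2 ∈ (closure (perp D x)).comap φ :=
        subset_closure (show φ _ ∈ _ from e2 ▸ ⟨hb, fun h => hbc (h ▸ h3), h2⟩)
      have m3 : swap 2 3 ∈ (closure (perp D x)).comap φ :=
        subset_closure (show φ _ ∈ _ from e3 ▸ ⟨hc, fun h => hcd (h ▸ h4), h3⟩)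
      have m4 : swap 3 4 ∈ (closure (perp D x)).comap φ :=
        subset_closure (show φ _ ∈ _ from e4 ▸ ⟨hd, fun h => hcd (h ▸ h3.symm), h4⟩)
      have := Perm.mclosure_swap_castSucc_succ 4
      intro σ _
      have hσ : σ ∈ Submonoid.closure
        (Set.range fun i : Fin 4 => swap i.castSucc i.succ) := this ▸ Submonoid.mem_top σ
      refine (Submonoid.closure_le (S := ((closure (perp D x)).comap φ).toSubmonoid)).mpr ?_ hσ
      rintro _ ⟨i, rfl⟩
      fin_cases i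
      exacts [m1, m2, m3, m4]
    exact fun σ => this (mem_top σ)
  exact Perm.not_isSolvable_fin_5 (Group.isSolvable_of_isSolvable_injective
    (f := φ.codRestrict _ hle) fun σ τ h => hinj (congrArg Subtype.val h))

theorem isSolvable_perp {D : Set G} (hD : IsThreeTranspositionClass D) {x y : G} (hx : x ∈ D)
    (hy : y ∈ D) (h : Group.IsSolvable (closure (perp D x))) :
    Group.IsSolvable (closure (perp D y)) := by
  obtain ⟨g, rfl⟩ := exists_cj hD hx hy
  rw [← image_perp hD, show cj g = (MulAut.conj g).toMonoidHom from rfl, ← MonoidHom.map_closure]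
  exact Group.isSolvable_of_surjective (MonoidHom.subgroupMap_surjective _ _)

/-- extension by zero -/
def ez {K : Type*} [Zero K] {m : ℕ} (k : ℕ) (y : Fin m → K) : Fin (m + k) → K := Fin.append y 0

theorem hf_ez {m k : ℕ} (y z : Fin m → F4) : hf (ez k y) (ez k z) = hf y z := by
  simp [stdHerm_apply, Fin.sum_univ_add, ez]

theorem ez_ne {K : Type*} [Zero K] {m k : ℕ} {y : Fin m → K} (h : y ≠ 0) : ez k y ≠ 0 :=
  fun e => h (funext fun i => by simpa [ez] using congrFun e (Fin.castAdd k i))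

theorem sympBilin_eq {m : ℕ} (u v : Fin m ⊕ Fin m → ZMod 2) : sympBilin m (ZMod 2) u v =
    ∑ i : Fin m, (u (.inr i) * v (.inl i) - u (.inl i) * v (.inr i)) := by
  simp [sympBilin_apply, Cfsg.sympForm, Matrix.J, dotProduct, Fintype.sum_sum_type,
    Matrix.fromBlocks_mulVec, Matrix.neg_mulVec, Finset.sum_add_distrib, CharTwo.sub_eq_add,
    add_comm]

variable [Finite G]

theorem Base.le_five {D : Set G} {x b : G} (hB : Base D x b)
    (hs : Group.IsSolvable (closure (perp D x))) :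
    Nonempty (G ≃* PSU 4 F4 2) ∨ Nonempty (G ≃* PSU 5 F4 2) := by
  obtain ⟨n, v, h4, -, h2, h3, -, k⟩ := hB.exists_u_model
  rcases Nat.lt_or_ge n 6 with h | h
  · interval_cases n
    exacts [Or.inl k, Or.inr k]
  exfalso
  obtain ⟨m, rfl⟩ := Nat.exists_eq_add_of_le h
  have pt : ∀ y : Fin 6 → F4, y ≠ 0 → hf y y = 0 → ∃ d ∈ D, ∃ l : F4, l ≠ 0 ∧ ez m y = l • v d :=
    fun y h1 h2 => h3 _ (ez_ne h1) (by rw [hf_ez, h2])
  have cm : ∀ {y z : Fin 6 → F4} {d e : G} {l l' : F4}, d ∈ D → e ∈ D → l ≠ 0 → l' ≠ 0 →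
      ez m y = l • v d → ez m z = l' • v e → (Commute d e ↔ hf y z = 0) := by
    intro y z d e l l' hd he hl hl' e1 e2
    rw [← h2 d hd e he, ← hf_ez (k := m) y z, e1, e2]
    simp [hl, hl']
  obtain ⟨p, hp, l0, n0, e0⟩ := pt ![0, 0, 0, 0, 1, 1] (by decide) (by
    rw [stdHerm_apply]; decide)
  obtain ⟨a, ha, l1, n1, e1⟩ := pt ![1, 1, 0, 0, 0, 0] (by decide) (by
    rw [stdHerm_apply]; decide)
  obtain ⟨c, hc, l2, n2, e2⟩ := pt ![0, 1, 1, 0, 0, 0] (by decide) (by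
    rw [stdHerm_apply]; decide)
  obtain ⟨d, hd, l3, n3, e3⟩ := pt ![0, 0, 1, 1, 0, 0] (by decide) (by
    rw [stdHerm_apply]; decide)
  obtain ⟨e, he, l4, n4, e4⟩ := pt ![1, 1, 1, F4.w, 0, 0] (by decide) (by
    rw [stdHerm_apply]; decide)
  refine chain_not_solvable hB.cl ha hc hd he ?_ ?_ ?_ ?_ ?_ ?_ ?_ ?_ ?_ ?_
    (isSolvable_perp hB.cl hB.hx hp hs)
  · rw [cm ha hc n1 n2 e1 e2, stdHerm_apply]; decide
  · rw [cm hc hd n2 n3 e2 e3, stdHerm_apply]; decide
  · rw [cm hd he n3 n4 e3 e4, stdHerm_apply]; decide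
  · rw [cm ha hd n1 n3 e1 e3, stdHerm_apply]; decide
  · rw [cm ha he n1 n4 e1 e4, stdHerm_apply]; decide
  · rw [cm hc he n2 n4 e2 e4, stdHerm_apply]; decide
  · rw [cm hp ha n0 n1 e0 e1, stdHerm_apply]; decide
  · rw [cm hp hc n0 n2 e0 e2, stdHerm_apply]; decide
  · rw [cm hp hd n0 n3 e0 e3, stdHerm_apply]; decide
  · rw [cm hp he n0 n4 e0 e4, stdHerm_apply]; decide

theorem Fi.six_of_thin {D : Set G} (hF : Fi D) (hT : Thick D) (h3 : Thin D) (hZ : center G = ⊥)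
    {x : G} (hx : x ∈ D) (hs : Group.IsSolvable (closure (perp D x))) :
    Nonempty (G ≃* Perm (Fin 6)) := by
  have hD := hF.cl
  obtain ⟨m, a, h1, h2, h4, h5, h6, -⟩ := hF.exists_sp_model hT h3 hZ
  rcases Nat.lt_or_ge m 3 with h | h
  · obtain ⟨y, hy, hyx, hxy⟩ := hF.exists_perp hx
    have k1 := (h1 x hx y hy).mpr hxy
    have k2 : a y ≠ a x := fun e => hyx (h6 y hy x hx e)
    have k3 := h4 x hx
    have k4 := h4 y hy
    rw [sympBilin_eq] at k1
    interval_cases m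
    · exact absurd (Subsingleton.elim _ _) k3
    · exfalso
      generalize a x = u at *
      generalize a y = w at *
      clear * - k1 k2 k3 k4
      revert u w
      decide
    clear k1 k2 k3 k4
    obtain ⟨g1, m1, e1⟩ := h2 (Sum.elim ![1, 0] ![0, 0]) (by decide)
    obtain ⟨g2, m2, e2⟩ := h2 (Sum.elim ![0, 0] ![1, 0]) (by decide)
    obtain ⟨g3, m3, e3⟩ := h2 (Sum.elim ![1, 1] ![0, 0]) (by decide)
    obtain ⟨g4, m4, e4⟩ := h2 (Sum.elim ![0, 0] ![0, 1]) (by decide)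
    obtain ⟨g5, m5, e5⟩ := h2 (Sum.elim ![0, 1] ![0, 0]) (by decide)
    have t : ∀ {d e u w}, d ∈ D → e ∈ D → a d = u → a e = w → (Commute d e ↔
        ∑ i : Fin 2, (u (.inr i) * w (.inl i) - u (.inl i) * w (.inr i)) = 0) := by
      rintro d e _ _ hd he rfl rfl
      rw [← h1 d hd e he, sympBilin_eq]
    have n12 : ¬ Commute g1 g2 := by rw [t m1 m2 e1 e2]; decide
    obtain ⟨φ, f1, f2, f3, f4, f5⟩ := exists_A5 hD.1 m1 m2 m3 m4 m5 n12
      (by rw [t m2 m3 e2 e3]; decide) (by rw [t m3 m4 e3 e4]; decide)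
      (by rw [t m4 m5 e4 e5]; decide) (by rw [t m1 m3 e1 e3]; decide)
      (by rw [t m1 m4 e1 e4]; decide) (by rw [t m1 m5 e1 e5]; decide)
      (by rw [t m2 m4 e2 e4]; decide) (by rw [t m2 m5 e2 e5]; decide)
      (by rw [t m3 m5 e3 e5]; decide)
    refine ⟨(MulEquiv.ofBijective φ ⟨injective_of_nc (by norm_num) φ (i := 0) (j := 1) (k := 2)
      (by decide) (by decide) (by rwa [f1, f2]), ?_⟩).symm⟩
    rw [← MonoidHom.range_eq_top, eq_top_iff, ← hD.2.2, closure_le]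
    let P : (Fin 2 ⊕ Fin 2 → ZMod 2) → Prop := fun u => ∃ d ∈ D, d ∈ φ.range ∧ a d = u
    have s : ∀ {u w}, P u → P w →
        ∑ i : Fin 2, (u (.inr i) * w (.inl i) - u (.inl i) * w (.inr i)) ≠ 0 → P (u + w) := by
      rintro _ _ ⟨d, hd, k1, rfl⟩ ⟨e, he, k2, rfl⟩ k
      exact ⟨cj d e, cj_mem_D hD he d, cj_mem k1 k2,
        h5 d hd e he (by rwa [t hd he rfl rfl])⟩
    have p1 : P _ := ⟨g1, m1, ⟨_, f1⟩, e1⟩
    have p2 : P _ := ⟨g2, m2, ⟨_, f2⟩, e2⟩
    have p3 : P _ := ⟨g3, m3, ⟨_, f3⟩, e3⟩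
    have p4 : P _ := ⟨g4, m4, ⟨_, f4⟩, e4⟩
    have p5 : P _ := ⟨g5, m5, ⟨_, f5⟩, e5⟩
    have p12 := s p1 p2 (by decide)
    have p23 := s p2 p3 (by decide)
    have p34 := s p3 p4 (by decide)
    have p45 := s p4 p5 (by decide)
    have p13 := s p12 p3 (by decide)
    have p24 := s p23 p4 (by decide)
    have p35 := s p34 p5 (by decide)
    have p14 := s p13 p4 (by decide)
    have p25 := s p24 p5 (by decide)
    have p15 := s p14 p5 (by decide)
    intro d hd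
    suffices h : P (a d) by
      obtain ⟨e, he, k1, k2⟩ := h
      exact h6 e he d hd k2 ▸ k1
    have key : ∀ u : Fin 2 ⊕ Fin 2 → ZMod 2, u ≠ 0 → let v1 := Sum.elim ![1, 0] ![0, 0]
        let v2 := Sum.elim ![0, 0] ![1, 0]
        let v3 := Sum.elim ![1, 1] ![0, 0]
        let v4 := Sum.elim ![0, 0] ![0, 1]
        let v5 := Sum.elim ![0, 1] ![0, 0]
        u = v1 ∨ u = v2 ∨ u = v3 ∨ u = v4 ∨ u = v5 ∨ u = v1 + v2 ∨ u = v2 + v3 ∨ u = v3 + v4 ∨
        u = v4 + v5 ∨ u = v1 + v2 + v3 ∨ u = v2 + v3 + v4 ∨ u = v3 + v4 + v5 ∨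
        u = v1 + v2 + v3 + v4 ∨ u = v2 + v3 + v4 + v5 ∨ u = v1 + v2 + v3 + v4 + v5 := by
      decide
    rcases key _ (h4 d hd) with k | k | k | k | k | k | k | k | k | k | k | k | k | k | k <;>
      rw [k] <;> assumption
  exfalso
  obtain ⟨k, rfl⟩ := Nat.exists_eq_add_of_le h
  have pt : ∀ y z : Fin 3 → ZMod 2, y ≠ 0 ∨ z ≠ 0 → ∃ d ∈ D, a d = Sum.elim (ez k y) (ez k z) :=
    fun y z h => h2 _ fun e => h.elim (fun h => ez_ne h (funext fun i => congrFun e (.inl i)))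
      fun h => ez_ne h (funext fun i => congrFun e (.inr i))
  have cm : ∀ {y z y' z' : Fin 3 → ZMod 2} {d e : G}, d ∈ D → e ∈ D →
      a d = Sum.elim (ez k y) (ez k z) → a e = Sum.elim (ez k y') (ez k z') →
      (Commute d e ↔ ∑ i, (z i * y' i - y i * z' i) = 0) := by
    intro y z y' z' d e hd he e1 e2
    rw [← h1 d hd e he, sympBilin_eq, e1, e2]
    simp [ez, Fin.sum_univ_add]
  obtain ⟨p, hp, e0⟩ := pt ![0, 0, 1] ![0, 0, 0] (by decide)
  obtain ⟨g1, m1, e1⟩ := pt ![1, 0, 0] ![0, 0, 0] (by decide)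
  obtain ⟨g2, m2, e2⟩ := pt ![0, 0, 0] ![1, 0, 0] (by decide)
  obtain ⟨g3, m3, e3⟩ := pt ![1, 1, 0] ![0, 0, 0] (by decide)
  obtain ⟨g4, m4, e4⟩ := pt ![0, 0, 0] ![0, 1, 0] (by decide)
  refine chain_not_solvable hD m1 m2 m3 m4 ?_ ?_ ?_ ?_ ?_ ?_ ?_ ?_ ?_ ?_
    (isSolvable_perp hD hx hp hs)
  · rw [cm m1 m2 e1 e2]; decide
  · rw [cm m2 m3 e2 e3]; decide
  · rw [cm m3 m4 e3 e4]; decide
  · rw [cm m1 m3 e1 e3]; decide
  · rw [cm m1 m4 e1 e4]; decide
  · rw [cm m2 m4 e2 e4]; decide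
  · rw [cm hp m1 e0 e1]; decide
  · rw [cm hp m2 e0 e2]; decide
  · rw [cm hp m3 e0 e3]; decide
  · rw [cm hp m4 e0 e4]; decide

theorem comm_of_cores_central {H : Type*} [Group H] [Finite H] (hs : Group.IsSolvable H)
    (h1 : pPrimeCore 2 H ≤ center H) (h2 : pCore 2 H ≤ center H) (a b : H) : Commute a b := by
  have : Fact (Nat.Prime 2) := ⟨Nat.prime_two⟩
  have h3 : fittingSubgroup H ≤ center H := fittingSubgroup_le_of_forall_pCore fun q hq => by
    rcases eq_or_ne q 2 with rfl | h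
    · exact h2
    · have := Fact.mk hq
      refine le_trans (le_pPrimeCore fun k => ?_) h1
      obtain ⟨n, hn⟩ := IsPGroup.iff_card.mp (pCore_isPGroup (p := q) (G := H))
      rw [hn] at k
      exact h ((Nat.prime_dvd_prime_iff_eq Nat.prime_two hq).mp
        (Nat.prime_two.dvd_of_dvd_pow k)).symm
  have h4 := inf_centralizer_fittingOf_le_of_isSolvable (H := (⊤ : Subgroup H)) inferInstance
  rw [fittingOf_top] at h4
  exact (mem_center_iff.mp (h3 (h4 ⟨mem_top b, fun g hg => (mem_center_iff.mp (h3 hg) b).symm⟩))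
    a)

end Cfsg.Agent.Lib.Fischer
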