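import Cfsg.Agent.Lib.Fischer.Rank3
import Cfsg.Agent.Lib.Invol.CoxeterA

set_option autoImplicit false

/-! # Fischer's theory of 3-transpositions: the symmetric group of degree five -/

namespace Cfsg.Agent.Lib.Fischer

open Subgroup Cfsg.Agent.Lib.Core Cfsg.Agent.Lib.Invol Equiv
open scoped Pointwise commutatorElement

variable {G : Type*} [Group G]

theorem exists_perm_of_injective {n : ℕ} (f : Fin n → Fin n) (hf : Function.Injective f) :
    ∃ σ : Perm (Fin n), ∀ i, σ i = f i :=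
  ⟨Equiv.ofBijective f (Finite.injective_iff_bijective.mp hf), fun _ => rfl⟩

theorem cj_map_swap {α : Type*} [DecidableEq α] (φ : Perm α →* G) (σ : Perm α) (i j : α) :
    cj (φ σ) (φ (swap i j)) = φ (swap (σ i) (σ j)) := by
  rw [← map_cj, swap_apply_apply, cj]

theorem exists_perm_five {i j k l m : Fin 5} (h : [i, j, k, l, m].Nodup) :
    ∃ σ : Perm (Fin 5), σ 0 = i ∧ σ 1 = j ∧ σ 2 = k ∧ σ 3 = l ∧ σ 4 = m := by
  obtain ⟨σ, hσ⟩ := exists_perm_of_injective ![i, j, k, l, m] (by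
    rw [← List.nodup_ofFn]; simpa using h)
  exact ⟨σ, hσ 0, hσ 1, hσ 2, hσ 3, hσ 4⟩

theorem exists_compl_five : ∀ i j k : Fin 5, i ≠ j → i ≠ k → j ≠ k →
    ∃ l m, [i, j, k, l, m].Nodup := by decide

theorem exists_A4 {a b c d : G} (ha : a * a = 1) (hb : b * b = 1) (hc : c * c = 1) (hd : d * d = 1)
    (hab : a * b * a = b * a * b) (hbc : b * c * b = c * b * c) (hcd : c * d * c = d * c * d)
    (hac : Commute a c) (had : Commute a d) (hbd : Commute b d) :
    ∃ φ : Perm (Fin 5) →* G, φ (swap 0 1) = a ∧ φ (swap 1 2) = b ∧ φ (swap 2 3) = c ∧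
      φ (swap 3 4) = d := by
  obtain ⟨φ, hφ⟩ := exists_hom_perm_of_coxRel (s := fun n => [a, b, c, d].getD n 1) (n := 4)
    ⟨fun i hi => by interval_cases i <;> assumption,
     fun i j hij hj => by
      have : i < 2 := by omega
      interval_cases j <;> interval_cases i <;> first | omega | assumption,
     fun i hi => by
      have : i < 3 := by omega
      interval_cases i <;> assumption⟩
  exact ⟨φ, hφ 0, hφ 1, hφ 2, hφ 3⟩

/-- no three pairwise commuting distinct points -/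
def NoTri (D : Set G) : Prop :=
  ∀ x ∈ D, ∀ y ∈ D, ∀ z ∈ D, Commute x y → Commute x z → Commute y z → x = y ∨ x = z ∨ y = z

section
variable {D : Set G} (hD : IsThreeTranspositionClass D)
include hD

theorem commute_cj_cj {p s t : G} (hp : p ∈ D) (hs : s ∈ D) (ht : t ∈ D) (h1 : ¬ Commute p s)
    (h2 : ¬ Commute p t) (h3 : Commute s t) : Commute p (cj s (cj t p)) :=
  (step0 hD.1 hp hs ht (cj_mem_D hD hs p) h1 h2 h3).1

theorem eq_of_cj_cj {p s t : G} (hp : p ∈ D) (hs : s ∈ D) (ht : t ∈ D) (h1 : ¬ Commute p s)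
    (h2 : ¬ Commute p t) (h3 : p = cj s (cj t p)) : s = t := by
  rw [← cj_eq_iff hD.1 hs, ← cj_comm hD.1 hp hs h1, ← cj_comm hD.1 hp ht h2, cj_inj] at h3
  exact h3

/-- a point joined to all six points of an `S₄` gives a triangle -/
theorem six (hT : NoTri D) {a b c p : G} (ha : a ∈ D) (hb : b ∈ D) (hc : c ∈ D) (hp : p ∈ D)
    (hab : ¬ Commute a b) (hbc : ¬ Commute b c) (hac : Commute a c) (hne : a ≠ c)
    (h1 : ¬ Commute p a) (h2 : ¬ Commute p b) (h3 : ¬ Commute p c) (h4 : ¬ Commute p (cj a b))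
    (h5 : ¬ Commute p (cj c b)) (h6 : ¬ Commute p (cj a (cj c b))) : False := by
  have he := cj_mem_D hD (cj_mem_D hD hb c) a
  have hbe : Commute b (cj a (cj c b)) := commute_cj_cj hD hb ha hc (fun h => hab h.symm) hbc hac
  have hf : Commute (cj a b) (cj c b) := by
    rw [cj_comm hD.1 ha hb hab, ← cj_comm hD.1 hb hc hbc, commute_cj]; exact hac
  have e1 : ∀ q, cj c (cj a (cj b (cj (cj a (cj c b)) q))) = cj (cj a b) (cj (cj c b) q) := by
    intro q
    rw [← cj_mul c a, ← cj_mul (c * a) b, ← cj_mul (c * a * b), ← cj_mul (cj a b)]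
    congr 1
    have h7 := threeTransp_braid hD.1 ha hb hab
    have h8 := threeTransp_braid hD.1 hb hc hbc
    simp only [cj, inv_eq hD.1 ha, inv_eq hD.1 hc]
    calc c * a * b * (a * (c * b * c) * a) = (c * a) * b * (a * c) * b * (c * a) := by group
      _ = (a * c) * b * (c * a) * b * (a * c) := by rw [hac.eq]
      _ = a * (c * b * c) * (a * b * a) * c := by group
      _ = a * (b * c * b) * (b * a * b) * c := by rw [h7, h8]
      _ = a * b * c * (b * b) * a * b * c := by group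
      _ = a * b * (c * a) * b * c := by rw [threeTransp_mul_self hD.1 hb]; group
      _ = a * b * a * (c * b * c) := by rw [← hac.eq]; group
  have e2 : Commute (cj a (cj c p)) (cj b (cj (cj a (cj c b)) p)) := by
    rw [commute_cj_left hD.1 ha, commute_cj_left hD.1 hc, e1]
    exact commute_cj_cj hD hp (cj_mem_D hD hb a) (cj_mem_D hD hb c) h4 h5 hf
  rcases hT p hp _ (cj_mem_D hD (cj_mem_D hD hp c) a) _ (cj_mem_D hD (cj_mem_D hD hp _) b)
    (commute_cj_cj hD hp ha hc h1 h3 hac) (commute_cj_cj hD hp hb he h2 h6 hbe) e2 with h | h | h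
  · exact hne (eq_of_cj_cj hD hp ha hc h1 h3 h)
  · exact hne (eq_of_cj_cj hD hb ha hc (fun h => hab h.symm) hbc (eq_of_cj_cj hD hp hb he h2 h6 h))
  · rw [cj_eq_iff hD.1 ha, cj_eq_iff hD.1 hc, e1] at h
    have := eq_of_cj_cj hD hp (cj_mem_D hD hb a) (cj_mem_D hD hb c) h4 h5 h
    rw [cj_comm hD.1 ha hb hab, ← cj_comm hD.1 hb hc hbc, cj_inj] at this
    exact hne this

variable {φ : Perm (Fin 5) →* G} (h01 : φ (swap 0 1) ∈ D)
  (hnc : ¬ Commute (φ (swap 0 1)) (φ (swap 1 2)))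

include h01 in
theorem five_mem {i j : Fin 5} (h : i ≠ j) : φ (swap i j) ∈ D := by
  obtain ⟨k, h1, h2⟩ : ∃ k, i ≠ k ∧ j ≠ k := by revert i j; decide
  obtain ⟨l, m, h3⟩ := exists_compl_five i j k h h1 h2
  obtain ⟨σ, rfl, rfl, -⟩ := exists_perm_five h3
  rw [← cj_map_swap]
  exact cj_mem_D hD h01 _

omit hD in
include hnc in
theorem five_nc {i j k : Fin 5} (h : i ≠ j) (h1 : i ≠ k) (h2 : j ≠ k) :
    ¬ Commute (φ (swap i j)) (φ (swap j k)) := by
  obtain ⟨l, m, h3⟩ := exists_compl_five i j k h h1 h2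
  obtain ⟨σ, rfl, rfl, rfl, -⟩ := exists_perm_five h3
  rwa [← cj_map_swap, ← cj_map_swap, commute_cj]

omit hD in
theorem five_line {p : G} {i j k : Fin 5} (h : i ≠ j) (h1 : i ≠ k) (h2 : j ≠ k)
    (h3 : Commute p (φ (swap i j))) (h4 : Commute p (φ (swap j k))) : Commute p (φ (swap i k)) := by
  have := commute_cj_of h3 h4
  rwa [cj_map_swap, swap_apply_right, swap_apply_of_ne_of_ne h1.symm h2.symm] at this

omit hD in
theorem five_comm {i j k l : Fin 5} (h : [i, j, k, l].Nodup) :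
    Commute (φ (swap i j)) (φ (swap k l)) :=
  (Perm.disjoint_swap_swap h).commute.map φ

omit hD in
include hnc in
theorem five_ne {i j k l : Fin 5} (h : [i, j, k, l].Nodup) : φ (swap i j) ≠ φ (swap k l) := by
  obtain ⟨m, h2, h3, h4, hm⟩ : ∃ m, i ≠ j ∧ i ≠ m ∧ j ≠ m ∧ [k, l, j, m].Nodup := by
    revert i j k l; decide
  intro h1
  refine five_nc hnc h2 h3 h4 ?_
  rw [h1]
  exact five_comm hm

include h01 hnc in
theorem five_type_nc (hT : NoTri D) {p : G} (hp : p ∈ D) {i j k l : Fin 5}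
    (h : [j, k, i, l].Nodup) (p1 : Commute p (φ (swap i j))) (p2 : Commute p (φ (swap j k))) :
    ¬ Commute p (φ (swap i l)) := by
  intro h1
  have h' := h
  simp only [List.nodup_cons, List.mem_cons, not_or] at h'
  rcases hT p hp _ (five_mem hD h01 (by tauto)) _ (five_mem hD h01 (by tauto)) p2 h1
    (five_comm h) with h2 | h2 | h2
  · exact five_nc hnc (by tauto) (by tauto) (by tauto) (h2 ▸ p1).symm
  · rw [swap_comm] at p1
    exact five_nc hnc (by tauto) (by tauto) (by tauto) (h2 ▸ p1).symm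
  · exact five_ne hnc h h2

include h01 hnc in
theorem five_key (hT : NoTri D) {p q : G} (hp : p ∈ D) (hq : q ∈ D) {i j k l m : Fin 5}
    (h : [i, j, k, l, m].Nodup) (p1 : Commute p (φ (swap i j))) (p2 : Commute p (φ (swap j k)))
    (q1 : Commute q (φ (swap k l))) (q2 : Commute q (φ (swap l m))) : Commute p q := by
  obtain ⟨σ, rfl, rfl, rfl, rfl, rfl⟩ := exists_perm_five h
  rw [← cj_cj_inv (φ σ) p, ← cj_cj_inv (φ σ) q, ← cj_map_swap, commute_cj] at *
  rw [cj_mem_D_iff hD] at hp hq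
  generalize cj (φ σ)⁻¹ p = p at *
  generalize cj (φ σ)⁻¹ q = q at *
  clear h σ
  by_contra hpq
  have m : ∀ {i j : Fin 5}, i ≠ j → φ (swap i j) ∈ D := fun h => five_mem hD h01 h
  have n : ∀ {i j k : Fin 5}, i ≠ j → i ≠ k → j ≠ k → ¬ Commute (φ (swap i j)) (φ (swap j k)) :=
    fun h1 h2 h3 => five_nc hnc h1 h2 h3
  have hq23 : q ≠ φ (swap 2 3) := fun h => n (by decide) (by decide) (by decide) (h ▸ q2)
  have r01 : ¬ Commute q (φ (swap 0 1)) := fun h => by
    rcases hT q hq _ (m (by decide)) _ (m (by decide)) h q1 (five_comm (by decide)) with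
      h' | h' | h'
    · exact hpq (h' ▸ p1)
    · exact hq23 h'
    · exact five_ne hnc (by decide) h'
  have r12 : ¬ Commute q (φ (swap 1 2)) := by
    rw [swap_comm]; exact five_type_nc hD h01 hnc hT hq (by decide) q1 q2
  have r02 : ¬ Commute q (φ (swap 0 2)) := by
    rw [swap_comm]; exact five_type_nc hD h01 hnc hT hq (by decide) q1 q2
  have s13 : ¬ Commute p (φ (swap 1 3)) :=
    five_type_nc hD h01 hnc hT hp (j := 0) (k := 2) (by decide) (by rwa [swap_comm])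
      (five_line (by decide) (by decide) (by decide) p1 p2)
  have e1 : cj (φ (swap 2 3)) (φ (swap 1 3)) = φ (swap 1 2) := by rw [cj_map_swap]; rfl
  have e2 : cj (φ (swap 0 1)) (φ (swap 1 2)) = φ (swap 0 2) := by rw [cj_map_swap]; rfl
  have e3 : cj (cj (φ (swap 2 3)) p) (φ (swap 1 2)) = cj (φ (swap 2 3)) (cj (φ (swap 1 3)) p) := by
    rw [← e1, cj_cj_cj, cj_comm hD.1 hp (m (by decide)) s13]
  set r := cj (φ (swap 2 3)) (cj (φ (swap 1 3)) p) with hr
  have hrD : r ∈ D := cj_mem_D hD (cj_mem_D hD hp _) _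
  have c1 : Commute r (φ (swap 2 3)) := by
    rw [hr, commute_cj_left hD.1 (m (by decide)), commute_cj_left hD.1 (m (by decide)), cj_self,
      cj_map_swap]
    rwa [swap_comm] at p2
  have c2 : Commute r (φ (swap 0 2)) := by
    rw [hr, commute_cj_left hD.1 (m (by decide)), commute_cj_left hD.1 (m (by decide)),
      cj_map_swap, cj_map_swap]
    exact p1
  have c3 : φ (swap 2 3) ≠ r := fun h =>
    n (i := 0) (j := 2) (k := 3) (by decide) (by decide) (by decide) (h ▸ c2).symm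
  have c4 : Commute (φ (swap 0 1)) (φ (swap 2 3)) := five_comm (by decide)
  refine six hD hT (a := φ (swap 0 1)) (b := φ (swap 1 2)) (c := cj (φ (swap 2 3)) p)
    (m (by decide)) (m (by decide)) (cj_mem_D hD hp _) hq hnc ?_
    (commute_cj_of c4 p1.symm) ?_ r01 r12 (fun h => hpq (commute_of_cj q1 h).symm) (e2 ▸ r02) ?_ ?_
  · rw [← e1, commute_cj]; exact fun h => s13 h.symm
  · rw [ne_eq, ← cj_eq_iff hD.1 (m (by decide)), cj_of_commute c4.symm]
    exact fun h => hnc (h ▸ p2)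
  · rw [e3]
    intro h
    rcases hT q hq _ (m (by decide)) _ hrD q1 h c1.symm with h' | h' | h'
    exacts [hq23 h', r02 (h' ▸ c2), c3 h']
  · rw [e3]
    intro h
    rcases hT q hq _ (m (by decide)) _ (cj_mem_D hD hrD _) q1 h
      (commute_cj_of c4.symm c1.symm) with h' | h' | h'
    · exact hq23 h'
    · refine r12 ?_
      rw [h', commute_cj_left hD.1 (m (by decide)), e2]
      exact c2
    · rw [← cj_eq_iff hD.1 (m (by decide)), cj_of_commute c4] at h'
      exact c3 h'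

include h01 hnc in
theorem five_classify (hT : NoTri D) {p : G} (hp : p ∈ D) : ∃ i j k : Fin 5, i ≠ j ∧ i ≠ k ∧ j ≠ k ∧
    Commute p (φ (swap i j)) ∧ Commute p (φ (swap j k)) := by
  have m : ∀ {i j : Fin 5}, i ≠ j → φ (swap i j) ∈ D := fun h => five_mem hD h01 h
  by_cases h0 : ∃ l m, l ≠ m ∧ p = φ (swap l m)
  · obtain ⟨l, m, hlm, rfl⟩ := h0
    obtain ⟨i, j, k, h1, h2, h3, h4, h5⟩ : ∃ i j k : Fin 5, i ≠ j ∧ i ≠ k ∧ j ≠ k ∧
      [l, m, i, j].Nodup ∧ [l, m, j, k].Nodup := by clear hp; revert l m; decide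
    exact ⟨i, j, k, h1, h2, h3, five_comm h4, five_comm h5⟩
  push Not at h0
  have key : ∀ n : Fin 5, ∃ i j, i ≠ j ∧ i ≠ n ∧ j ≠ n ∧ Commute p (φ (swap i j)) := fun n => by
    by_contra hn
    push Not at hn
    obtain ⟨i, j, k, l, h⟩ : ∃ i j k l : Fin 5, [i, j, k, l, n].Nodup := by
      clear hn; revert n; decide
    have h' := h
    simp only [List.nodup_cons, List.mem_cons, not_or] at h'
    have h4 : [i, j, k, l].Nodup := by
      simp only [List.nodup_cons, List.mem_cons, not_or]; tauto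
    have e1 : cj (φ (swap k l)) (φ (swap j k)) = φ (swap j l) := by
      rw [cj_map_swap, swap_apply_left, swap_apply_of_ne_of_ne (by tauto) (by tauto)]
    refine six hD hT (a := φ (swap i j)) (b := φ (swap j k)) (c := φ (swap k l))
      (m (by tauto)) (m (by tauto)) (m (by tauto)) hp
      (five_nc hnc (by tauto) (by tauto) (by tauto)) (five_nc hnc (by tauto) (by tauto) (by tauto))
      (five_comm h4) (five_ne hnc h4) (hn _ _ (by tauto) (by tauto) (by tauto))
      (hn _ _ (by tauto) (by tauto) (by tauto)) (hn _ _ (by tauto) (by tauto) (by tauto)) ?_ ?_ ?_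
    · rw [cj_map_swap, swap_apply_right, swap_apply_of_ne_of_ne (by tauto) (by tauto)]
      exact hn _ _ (by tauto) (by tauto) (by tauto)
    · rw [e1]
      exact hn _ _ (by tauto) (by tauto) (by tauto)
    · rw [e1, cj_map_swap, swap_apply_right, swap_apply_of_ne_of_ne (by tauto) (by tauto)]
      exact hn _ _ (by tauto) (by tauto) (by tauto)
  obtain ⟨i, j, hij, -, -, h1⟩ := key 0
  obtain ⟨k, l, hkl, hk, hl, h2⟩ := key i
  by_cases hkj : k = j
  · subst hkj
    exact ⟨i, k, l, hij, hl.symm, hkl, h1, h2⟩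
  by_cases hlj : l = j
  · subst hlj
    rw [swap_comm] at h2
    exact ⟨i, l, k, hij, hk.symm, hkl.symm, h1, h2⟩
  have h4 : [i, j, k, l].Nodup := by
    simp only [List.nodup_cons, List.mem_cons, not_or]; tauto
  rcases hT p hp _ (m hij) _ (m hkl) h1 h2 (five_comm h4) with h | h | h
  exacts [absurd h (h0 _ _ hij), absurd h (h0 _ _ hkl), absurd h (five_ne hnc h4)]

end

set_option synthInstance.maxSize 2000 in
set_option synthInstance.maxHeartbeats 200000 in
theorem five_cases : ∀ i j k : Fin 5, i ≠ j → i ≠ k → j ≠ k →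
    ((0 = i ∨ 0 = j ∨ 0 = k) ∧ (1 = i ∨ 1 = j ∨ 1 = k) ∧ (2 = i ∨ 2 = j ∨ 2 = k)) ∨
    (∃ a b c d : Fin 5, a ≠ b ∧ a ≠ c ∧ b ≠ c ∧ a ≠ d ∧ b ≠ d ∧ (a = 0 ∨ a = 1 ∨ a = 2) ∧
      (b = 0 ∨ b = 1 ∨ b = 2) ∧ (c = 0 ∨ c = 1 ∨ c = 2) ∧ (a = i ∨ a = j ∨ a = k) ∧
      (b = i ∨ b = j ∨ b = k) ∧ (d = i ∨ d = j ∨ d = k)) ∨
    (∃ a b c : Fin 5, [a, b, c, 3, 4].Nodup ∧ (a = 0 ∨ a = 1 ∨ a = 2) ∧
      (b = 0 ∨ b = 1 ∨ b = 2) ∧ (c = 0 ∨ c = 1 ∨ c = 2) ∧ (c = i ∨ c = j ∨ c = k) ∧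
      (3 = i ∨ 3 = j ∨ 3 = k) ∧ (4 = i ∨ 4 = j ∨ 4 = k)) := by decide +kernel

theorem five_ty {φ : Perm (Fin 5) →* G} {p : G} {i j k : Fin 5} (h : i ≠ j) (h1 : i ≠ k)
    (h2 : j ≠ k) (h3 : Commute p (φ (swap i j))) (h4 : Commute p (φ (swap j k))) {a b : Fin 5}
    (ha : a = i ∨ a = j ∨ a = k) (hb : b = i ∨ b = j ∨ b = k) : Commute p (φ (swap a b)) := by
  have h5 := five_line h h1 h2 h3 h4
  rcases ha with rfl | rfl | rfl <;> rcases hb with rfl | rfl | rfl <;>
    first | assumption | (rw [swap_comm]; assumption) | simp [← Perm.one_def]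

variable [Finite G]

namespace Fi
variable {D : Set G} (hF : Fi D)
include hF

theorem five_of_noTri (hT : NoTri D) {φ : Perm (Fin 5) →* G} (h01 : φ (swap 0 1) ∈ D)
    (hnc : ¬ Commute (φ (swap 0 1)) (φ (swap 1 2))) : Nonempty (G ≃* Perm (Fin 5)) := by
  have hD := hF.cl
  let B : Set G := {p | p ∈ D ∧ Commute p (φ (swap 0 1)) ∧ Commute p (φ (swap 1 2))}
  have hB : IsModule D B := by
    refine ⟨fun p hp => hp.1, fun w hw hwB => ?_⟩
    obtain ⟨i, j, k, h1, h2, h3, h4, h5⟩ := five_classify hD h01 hnc hT hw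
    rcases five_cases i j k h1 h2 h3 with ⟨h6, h7, h8⟩ |
      ⟨a, b, c, d, hab, hac, hbc, had, hbd, ha, hb, hc, ha', hb', hd'⟩ |
      ⟨a, b, c, hn, ha, hb, hc, hc', h6, h7⟩
    · exact absurd ⟨hw, five_ty h1 h2 h3 h4 h5 h6 h7, five_ty h1 h2 h3 h4 h5 h7 h8⟩ hwB
    · refine Or.inr fun p hp hwp => ?_
      have t : ∀ {a b : Fin 5}, (a = 0 ∨ a = 1 ∨ a = 2) → (b = 0 ∨ b = 1 ∨ b = 2) →
        Commute p (φ (swap a b)) := fun ha hb =>
          five_ty (by decide) (by decide) (by decide) hp.2.1 hp.2.2 ha hb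
      rcases hT w hw p hp.1 _ (five_mem hD h01 hab) hwp (five_ty h1 h2 h3 h4 h5 ha' hb')
        (t ha hb) with h | h | h
      · exact hwB (h ▸ hp)
      · exact five_nc hnc hab had hbd (h ▸ five_ty h1 h2 h3 h4 h5 hb' hd')
      · exact five_nc hnc hab hac hbc (h ▸ t hb hc)
    · refine Or.inl fun p hp => Commute.symm ?_
      have t : ∀ {a b : Fin 5}, (a = 0 ∨ a = 1 ∨ a = 2) → (b = 0 ∨ b = 1 ∨ b = 2) →
        Commute p (φ (swap a b)) := fun ha hb =>
          five_ty (by decide) (by decide) (by decide) hp.2.1 hp.2.2 ha hb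
      exact five_key hD h01 hnc hT hp.1 hw hn (t ha hb) (t hb hc) (five_ty h1 h2 h3 h4 h5 hc' h6)
        (five_ty h1 h2 h3 h4 h5 h6 h7)
  have hB1 : ∀ p ∈ B, p = φ (swap 3 4) := fun p hp => by
    by_contra hne
    have := hF.module_eq hB hp ⟨five_mem hD h01 (by decide), five_comm (by decide),
      five_comm (by decide)⟩ hne
    exact hnc (this.ge h01).2.2
  have hsurj : Function.Surjective φ := by
    rw [← MonoidHom.range_eq_top, eq_top_iff, ← hD.2.2, closure_le]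
    intro p hp
    obtain ⟨i, j, k, h1, h2, h3, h4, h5⟩ := five_classify hD h01 hnc hT hp
    obtain ⟨l, m, h6⟩ := exists_compl_five i j k h1 h2 h3
    obtain ⟨σ, rfl, rfl, rfl, -⟩ := exists_perm_five h6
    rw [← cj_cj_inv (φ σ) p, ← cj_map_swap, commute_cj] at h4 h5
    have := hB1 _ ⟨cj_mem_D hD hp _, h4, h5⟩
    refine ⟨cj σ (swap 3 4), ?_⟩
    rw [map_cj, ← this, cj_cj_inv]
  have hinj : Function.Injective φ := by
    rw [← MonoidHom.ker_eq_bot_iff]
    by_contra h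
    have := Perm.alternatingGroup_le_of_normal (α := Fin 5) (by simp) (N := φ.ker)
      ((nontrivial_iff_ne_bot _).mpr h)
    have h2 : swap 0 1 * swap 1 2 ∈ φ.ker := this (Perm.mem_alternatingGroup.mpr (by decide))
    rw [MonoidHom.mem_ker, map_mul, mul_eq_one_iff_eq_inv] at h2
    exact hnc (h2 ▸ (Commute.refl _).inv_left)
  exact ⟨(MulEquiv.ofBijective φ ⟨hinj, hsurj⟩).symm⟩

theorem noTri_of_theta {φ : Perm (Fin 5) →* G} (h01 : φ (swap 0 1) ∈ D)
    (hnc : ¬ Commute (φ (swap 0 1)) (φ (swap 1 2)))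
    (hΘ : ∀ w ∈ D, w ≠ φ (swap 0 1) → w ≠ φ (swap 3 4) → Commute (φ (swap 0 1)) w →
      Commute (φ (swap 3 4)) w → Commute (φ (swap 2 3)) w) : NoTri D := by
  have hD := hF.cl
  have m : ∀ {i j : Fin 5}, i ≠ j → φ (swap i j) ∈ D := fun h => five_mem hD h01 h
  have n : ∀ {i j k : Fin 5}, i ≠ j → i ≠ k → j ≠ k → ¬ Commute (φ (swap i j)) (φ (swap j k)) :=
    fun h1 h2 h3 => five_nc hnc h1 h2 h3
  have Θ : ∀ {i j k l m : Fin 5}, [i, j, k, l, m].Nodup → ∀ w ∈ D, w ≠ φ (swap i j) →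
      w ≠ φ (swap l m) → Commute (φ (swap i j)) w → Commute (φ (swap l m)) w →
      Commute (φ (swap k l)) w := by
    intro i j k l m h w hw h1 h2 h3 h4
    obtain ⟨σ, rfl, rfl, rfl, rfl, rfl⟩ := exists_perm_five h
    rw [← cj_cj_inv (φ σ) w, ← cj_map_swap] at h1 h2 h3 h4 ⊢
    rw [ne_eq, cj_inj] at h1 h2
    rw [commute_cj] at h3 h4 ⊢
    exact hΘ _ (cj_mem_D hD hw _) h1 h2 h3 h4
  have all : ∀ {i j k l m : Fin 5}, [i, j, k, l, m].Nodup → ∀ w ∈ D, w ≠ φ (swap i j) →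
      w ≠ φ (swap l m) → Commute (φ (swap i j)) w → Commute (φ (swap l m)) w →
      ∀ σ, Commute (φ σ) w := by
    intro i j k l m h w hw h1 h2 h3 h4
    obtain ⟨σ, rfl, rfl, rfl, rfl, rfl⟩ := exists_perm_five h
    rw [← cj_cj_inv (φ σ) w, ← cj_map_swap] at h1 h2 h3 h4
    rw [ne_eq, cj_inj] at h1 h2
    rw [commute_cj] at h3 h4
    have hw' := cj_mem_D hD hw (φ σ)⁻¹
    have h5 := hΘ _ hw' h1 h2 h3 h4
    have h6 := Θ (i := 3) (j := 4) (k := 2) (l := 1) (m := 0) (by decide) _ hw' h2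
      (by rwa [swap_comm]) h4 (by rwa [swap_comm])
    rw [swap_comm] at h6
    have h7 : ∀ τ, Commute (φ τ) (cj (φ σ)⁻¹ w) := fun τ => by
      have : τ ∈ Submonoid.closure (Set.range fun i : Fin 4 => swap i.castSucc i.succ) :=
        Perm.mclosure_swap_castSucc_succ 4 ▸ Submonoid.mem_top τ
      refine Submonoid.closure_induction ?_ (by simp) (fun a b _ _ ha hb => ?_) this
      · rintro _ ⟨i, rfl⟩
        fin_cases i
        exacts [h3, h6, h5, h4]
      · rw [map_mul]; exact ha.mul_left hb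
    intro τ
    have := h7 (cj σ⁻¹ τ)
    rwa [map_cj, map_inv, commute_cj] at this
  intro x hx u hu y hy hxu hxy huy
  by_contra hne
  push Not at hne
  obtain ⟨g, rfl, rfl⟩ := hF.pair_perp h01 (b := φ (swap 3 4))
    ⟨m (by decide), five_ne hnc (by decide), five_comm (by decide)⟩ hx ⟨hu, hne.1.symm, hxu⟩
  obtain ⟨y, rfl⟩ : ∃ y', y = cj g y' := ⟨_, (cj_cj_inv g y).symm⟩
  simp only [ne_eq, cj_inj, commute_cj, cj_mem_D_iff hD] at hne hxy huy hy
  clear hx hu hxu g
  have yall := all (i := 0) (j := 1) (k := 2) (l := 3) (m := 4) (by decide) y hy (Ne.symm hne.2.1)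
    (Ne.symm hne.2.2) hxy huy
  obtain ⟨h, h1, h2⟩ := hF.perp_trans' h01 (x := φ (swap 3 4))
    ⟨m (by decide), five_ne hnc (by decide), five_comm (by decide)⟩ ⟨hy, Ne.symm hne.2.1, hxy⟩
  set c := cj h (φ (swap 1 3)) with hc
  have hcD : c ∈ D := cj_mem_D hD (m (by decide)) h
  have c01 : ¬ Commute c (φ (swap 0 1)) := by
    rw [← cj_of_commute h1, hc, commute_cj]
    exact fun h => n (by decide) (by decide) (by decide) h.symm
  have cy : ¬ Commute c y := by
    rw [← h2, hc, commute_cj]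
    exact n (by decide) (by decide) (by decide)
  have cS : ∀ σ, c ≠ φ σ := fun σ h => cy (h ▸ yall σ)
  have yS : ∀ {i j : Fin 5}, i ≠ j → y ≠ φ (swap i j) := fun {i j} hij h => by
    obtain ⟨k, h1, h2⟩ : ∃ k, i ≠ k ∧ j ≠ k := by clear h; revert i j; decide
    exact n hij h1 h2 (h ▸ yall _).symm
  have cc : ∀ {i j : Fin 5}, [0, 1, i, j].Nodup → Commute c (φ (swap i j)) := fun {i j} hij => by
    have hij' : i ≠ j := by simp at hij; tauto
    rw [← cj_cj_inv h (φ (swap i j)), hc, commute_cj]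
    refine all (i := 0) (j := 1) (k := 2) (l := 3) (m := 4) (by decide) _
      (cj_mem_D hD (m hij') _) ?_ ?_ ?_ ?_ _
    · rw [ne_eq, ← cj_inj (g := h), cj_cj_inv, cj_of_commute h1]
      exact (five_ne hnc hij).symm
    · rw [ne_eq, ← cj_inj (g := h), cj_cj_inv, h2]
      exact (yS hij').symm
    · rw [← commute_cj (g := h), cj_cj_inv, cj_of_commute h1]
      exact five_comm hij
    · rw [← commute_cj (g := h), cj_cj_inv, h2]
      exact (yall _).symm
  have c34 : Commute c (φ (swap 3 4)) := cc (by decide)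
  have c23 : Commute c (φ (swap 2 3)) := cc (by decide)
  have cn : ∀ {i j k l m : Fin 5}, [i, j, k, l, m].Nodup → Commute c (φ (swap l m)) →
      ¬ Commute c (φ (swap i j)) := fun h h1 h2 =>
    c01 (all h c hcD (cS _) (cS _) h2.symm h1.symm _).symm
  have c02 : ¬ Commute c (φ (swap 0 2)) := cn (k := 1) (by decide) c34
  have c12 : ¬ Commute c (φ (swap 1 2)) := cn (k := 0) (by decide) c34
  have c14 : ¬ Commute c (φ (swap 1 4)) := cn (k := 0) (by decide) c23
  have e1 : cj (φ (swap 0 1)) (φ (swap 1 2)) = φ (swap 0 2) := by rw [cj_map_swap]; rfl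
  have e2 : cj (φ (swap 2 3)) (φ (swap 1 2)) = φ (swap 1 3) := by rw [cj_map_swap]; rfl
  obtain ⟨f1, f2⟩ := F1 hD.1 h01 hcD (m (i := 2) (j := 3) (by decide))
    (m (i := 1) (j := 2) (by decide)) (cj_mem_D hD (m (by decide)) _) hnc (five_comm (by decide)) c23
    (n (by decide) (by decide) (by decide))
    (by rw [← commute_cj_left hD.1 h01, e1]; exact fun h => c02 h.symm) (fun h => c12 h.symm)
  rw [e1, e2] at f1 f2
  rw [cj_comm_of_commute c23.symm, e2] at f2
  set y' := cj (φ (swap 1 3)) (cj (φ (swap 0 2)) c) with hy'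
  have hy'D : y' ∈ D := cj_mem_D hD (cj_mem_D hD hcD _) _
  have c4 : Commute (φ (swap 1 3)) (φ (swap 0 2)) := five_comm (by decide)
  have f3 : cj y' (φ (swap 1 3)) = cj c (φ (swap 0 2)) := by
    have g1 : cj (φ (swap 1 3)) (cj (φ (swap 0 2)) (φ (swap 1 3))) = φ (swap 1 3) := by
      rw [cj_of_commute c4.symm, cj_self]
    have g2 : cj (φ (swap 1 3)) (cj (φ (swap 0 2)) (φ (swap 0 2))) = φ (swap 0 2) := by
      rw [cj_self, cj_of_commute c4]
    have g3 : cj (φ (swap 1 3)) (cj (φ (swap 0 2)) y') = c := by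
      rw [hy', cj_comm_of_commute c4.symm, cj_cj hD.1 (m (by decide)), cj_cj hD.1 (m (by decide))]
    calc cj y' (φ (swap 1 3)) = cj (cj (φ (swap 1 3)) (cj (φ (swap 0 2)) c))
          (cj (φ (swap 1 3)) (cj (φ (swap 0 2)) (φ (swap 1 3)))) := by rw [g1]
      _ = cj (φ (swap 1 3)) (cj (φ (swap 0 2)) (cj y' (φ (swap 0 2)))) := by
        rw [cj_cj_cj, cj_cj_cj, f2]
      _ = cj c (φ (swap 0 2)) := by rw [← cj_cj_cj (φ (swap 0 2)), ← cj_cj_cj, g2, g3]
  have hp := cj_mem_D hD (cj_mem_D hD hy c) y'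
  have p1 : Commute (φ (swap 0 2)) (cj y' (cj c y)) := by
    rw [← commute_cj_left hD.1 hy'D, f2, commute_cj]; exact yall _
  have p2 : Commute (φ (swap 1 3)) (cj y' (cj c y)) := by
    rw [← commute_cj_left hD.1 hy'D, f3, commute_cj]; exact yall _
  have p3 := all (i := 0) (j := 2) (k := 4) (l := 1) (m := 3) (by decide) _ hp
    (by rw [ne_eq, cj_eq_iff hD.1 hy'D, f2, cj_inj]; exact yS (by decide))
    (by rw [ne_eq, cj_eq_iff hD.1 hy'D, f3, cj_inj]; exact yS (by decide)) p1 p2 (swap 1 4)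
  have p4 : Commute y' (φ (swap 1 4)) := by
    rw [hy', commute_cj_left hD.1 (m (by decide)), commute_cj_left hD.1 (m (by decide)),
      cj_map_swap, cj_map_swap]
    exact c34
  rw [commute_cj_iff p4.symm, ← commute_cj_left hD.1 hcD, cj_comm hD.1 hcD (m (by decide)) c14,
    commute_cj_left hD.1 (m (by decide)), cj_of_commute (yall _)] at p3
  exact cy p3

theorem iso_five_of_theta {x u v : G} (hx : x ∈ D) (hu : u ∈ perp D x) (hv : v ∈ perp D x)
    (huv : ¬ Commute u v) (hΘ : ∀ w ∈ perp D x, w ≠ u → Commute u w → Commute v w) :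
    Nonempty (G ≃* Perm (Fin 5)) := by
  have hD := hF.cl
  obtain ⟨c, hc, hvc⟩ : ∃ c ∈ perp D u, ¬ Commute v c := by
    by_contra h
    push Not at h
    exact hF.not_perp_subset hu.1 hv.1 huv h
  have hxc : ¬ Commute x c := fun h => hvc (by
    by_cases h1 : c = x
    · exact h1 ▸ hv.2.2.symm
    · exact hΘ c ⟨hc.1, h1, h⟩ hc.2.1 hc.2.2)
  obtain ⟨φ, h1, h2, h3, h4⟩ := exists_A4 (threeTransp_mul_self hD.1 hx)
    (threeTransp_mul_self hD.1 hc.1) (threeTransp_mul_self hD.1 hv.1)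
    (threeTransp_mul_self hD.1 hu.1) (threeTransp_braid hD.1 hx hc.1 hxc)
    (threeTransp_braid hD.1 hc.1 hv.1 fun h => hvc h.symm)
    (threeTransp_braid hD.1 hv.1 hu.1 fun h => huv h.symm) hv.2.2 hu.2.2 hc.2.2.symm
  subst h1 h2 h3 h4
  exact hF.five_of_noTri (hF.noTri_of_theta hx hxc fun w hw h1 h2 h3 h4 =>
    hΘ w ⟨hw, h1, h3⟩ h2 h4) hx hxc

end Fi

end Cfsg.Agent.Lib.Fischer
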