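import Cfsg.Agent.Lib.GL.HermBasis
import Cfsg.Agent.Lib.GL.AltBasis

set_option autoImplicit false

/-! # Realising Gram matrices; isomorphisms from graphs -/

namespace Cfsg.Agent.Lib.Fischer

open Module Cfsg.Agent.Lib.GL

theorem exists_gram_core {K : Type*} [Field K] (σ : K →+* K) (hσ : ∀ a, σ (σ a) = a) {I : Type*}
    [Fintype I] [DecidableEq I] (g : I → I → K) (hg : ∀ i j, g j i = σ (g i j)) :
    ∃ (R : Submodule K (I → K)) (B : ((I → K) ⧸ R) →ₗ[K] ((I → K) ⧸ R) →ₛₗ[σ] K),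
      (∀ u v, B v u = σ (B u v)) ∧ (∀ v, (∀ u, B u v = 0) → v = 0) ∧
      (∀ i j, B (R.mkQ (Pi.single i 1)) (R.mkQ (Pi.single j 1)) = g i j) ∧
      Submodule.span K (Set.range fun i => R.mkQ (Pi.single i 1)) = ⊤ := by
  let B0 : (I → K) →ₗ[K] (I → K) →ₛₗ[σ] K :=
    LinearMap.mk₂'ₛₗ (RingHom.id K) σ (fun u v => ∑ i, ∑ j, u i * σ (v j) * g i j)
      (fun _ _ _ => by simp [add_mul, Finset.sum_add_distrib])
      (fun _ _ _ => by simp [Finset.mul_sum, mul_assoc])
      (fun _ _ _ => by simp [mul_add, add_mul, Finset.sum_add_distrib])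
      (fun _ _ _ => by simp [Finset.mul_sum, mul_left_comm, mul_assoc])
  have h0 : ∀ u v, B0 u v = ∑ i, ∑ j, u i * σ (v j) * g i j := fun _ _ => rfl
  have h1 : ∀ u v, B0 v u = σ (B0 u v) := fun u v => by
    rw [h0, h0, map_sum, Finset.sum_comm]
    refine Finset.sum_congr rfl fun i _ => ?_
    rw [map_sum]
    refine Finset.sum_congr rfl fun j _ => ?_
    rw [map_mul, map_mul, hσ, hg i j]; ring
  have h2 : B0.ker ≤ B0.flip.ker := fun v hv => by
    ext u
    simp only [LinearMap.mem_ker] at hv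
    simp [h1 v, hv]
  refine ⟨B0.ker, B0.liftQ₂ _ _ le_rfl h2, fun u v => ?_, fun v hv => ?_, fun i j => ?_, ?_⟩
  · obtain ⟨u, rfl⟩ := Submodule.Quotient.mk_surjective _ u
    obtain ⟨v, rfl⟩ := Submodule.Quotient.mk_surjective _ v
    simp [h1 u v]
  · obtain ⟨v, rfl⟩ := Submodule.Quotient.mk_surjective _ v
    rw [Submodule.Quotient.mk_eq_zero, LinearMap.mem_ker]
    refine LinearMap.ext fun u => ?_
    have := hv (Submodule.Quotient.mk u)
    rw [LinearMap.liftQ₂_mk] at this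
    rw [h1, this, map_zero, LinearMap.zero_apply]
  · rw [Submodule.mkQ_apply, Submodule.mkQ_apply, LinearMap.liftQ₂_mk, h0]
    simp [Pi.single_apply, Finset.sum_ite_eq', ite_mul]
  · have : (Set.range fun i => B0.ker.mkQ (Pi.single i (1 : K))) =
        B0.ker.mkQ '' Set.range (Pi.basisFun K I) := by
      rw [← Set.range_comp]; congr 1; ext i; simp
    rw [this, ← Submodule.map_span, Basis.span_eq, Submodule.map_top, Submodule.range_mkQ]

theorem exists_gram_herm {K : Type*} [Field K] [Finite K] {σ : K →+* K} (hσ : Herm.IsInvol σ)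
    {I : Type*} [Finite I] (g : I → I → K) (hg : ∀ i j, g j i = σ (g i j)) :
    ∃ (n : ℕ) (a : I → Fin n → K), (∀ i j, Herm.stdHerm (Fin n) σ (a i) (a j) = g i j) ∧
      Submodule.span K (Set.range a) = ⊤ := by
  classical
  have := Fintype.ofFinite I
  obtain ⟨R, B, h1, h2, h3, h4⟩ := exists_gram_core σ hσ.invol g hg
  obtain ⟨e, he⟩ := Herm.IsHerm.exists_equiv (B := B) hσ ⟨h1, h2⟩ (ι := Fin _) (Fintype.card_fin _)
  refine ⟨_, fun i => e (R.mkQ (Pi.single i 1)), fun i j => by rw [← he, h3], ?_⟩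
  have : (Set.range fun i => e (R.mkQ (Pi.single i (1 : K)))) =
      (e : _ →ₗ[K] _) '' Set.range fun i => R.mkQ (Pi.single i 1) := by
    rw [← Set.range_comp]; rfl
  rw [this, ← Submodule.map_span, h4, Submodule.map_top, LinearEquiv.range]

theorem exists_gram_alt {I : Type*} [Finite I] (g : I → I → ZMod 2) (hg : ∀ i j, g j i = g i j)
    (h0 : ∀ i, g i i = 0) :
    ∃ (m : ℕ) (a : I → Fin m ⊕ Fin m → ZMod 2),
      (∀ i j, Alt.sympBilin m (ZMod 2) (a i) (a j) = g i j) ∧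
      Submodule.span (ZMod 2) (Set.range a) = ⊤ := by
  classical
  have := Fintype.ofFinite I
  obtain ⟨R, B, h1, h2, h3, h4⟩ := exists_gram_core (RingHom.id (ZMod 2)) (fun _ => rfl) g hg
  have hA : LinearMap.IsAlt B := fun v => by
    have : v ∈ Submodule.span (ZMod 2) (Set.range fun i => R.mkQ (Pi.single i 1)) :=
      h4 ▸ Submodule.mem_top
    refine Submodule.span_induction (p := fun v _ => B v v = 0) ?_ (by simp) ?_ ?_ this
    · rintro _ ⟨i, rfl⟩
      rw [h3, h0]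
    · intro x y _ _ hx hy
      simp only [map_add, LinearMap.add_apply, hx, hy, h1 x y, RingHom.id_apply, zero_add, add_zero]
      exact CharTwo.add_self_eq_zero _
    · intro c x _ hx
      simp [hx]
  obtain ⟨m, e, he⟩ := Alt.exists_equiv_sympForm (B := B) hA
    ⟨fun v hv => h2 v fun u => by rw [h1, hv u, map_zero], fun v hv => h2 v hv⟩
  refine ⟨m, fun i => e (R.mkQ (Pi.single i 1)), fun i j => by
    rw [Alt.sympBilin_apply, ← he, h3], ?_⟩
  have : (Set.range fun i => e (R.mkQ (Pi.single i (1 : ZMod 2)))) =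
      (e : _ →ₗ[ZMod 2] _) '' Set.range fun i => R.mkQ (Pi.single i 1) := by
    rw [← Set.range_comp]; rfl
  rw [this, ← Submodule.map_span, h4, Submodule.map_top, LinearEquiv.range]

theorem iso_of_graph {G H : Type*} [Group G] [Group H] (Γ : Subgroup (G × H))
    (h1 : ∀ g, ∃ h, (g, h) ∈ Γ) (h2 : ∀ h, ∃ g, (g, h) ∈ Γ) (h3 : ∀ g, (g, 1) ∈ Γ → g = 1)
    (N : Subgroup H) [N.Normal] (h4 : ∀ h, (1, h) ∈ Γ ↔ h ∈ N) : Nonempty (G ≃* H ⧸ N) := by
  let p : Γ →* H := (MonoidHom.snd G H).comp Γ.subtype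
  have hp : Function.Bijective p := by
    refine ⟨(injective_iff_map_eq_one p).mpr ?_, fun h => ?_⟩
    · rintro ⟨⟨g, h⟩, hm⟩ (rfl : h = 1)
      obtain rfl := h3 g hm
      rfl
    · obtain ⟨g, hg⟩ := h2 h
      exact ⟨⟨_, hg⟩, rfl⟩
  let e := MulEquiv.ofBijective p hp
  let f : H →* G := ((MonoidHom.fst G H).comp Γ.subtype).comp e.symm.toMonoidHom
  have hf : ∀ g h (hm : (g, h) ∈ Γ), f h = g := fun g h hm => by
    have : e.symm h = ⟨_, hm⟩ := e.symm_apply_eq.mpr rfl
    simp [f, this]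
  have hs : Function.Surjective f := fun g => by
    obtain ⟨h, hm⟩ := h1 g
    exact ⟨h, hf g h hm⟩
  have hk : f.ker = N := by
    ext h
    obtain ⟨g, hm⟩ := h2 h
    rw [MonoidHom.mem_ker, ← h4, hf g h hm]
    exact ⟨fun h => h ▸ hm, fun h => by
      have := hf _ _ h
      rwa [hf g _ hm] at this⟩
  exact ⟨((QuotientGroup.quotientMulEquivOfEq hk.symm).trans
    (QuotientGroup.quotientKerEquivOfSurjective f hs)).symm⟩

/-- projections of the subgroup generated by a graph -/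
theorem exists_snd_of_closure {G H : Type*} [Group G] [Group H] {S : Set (G × H)}
    (h : Subgroup.closure (Prod.fst '' S) = ⊤) (g : G) : ∃ h, (g, h) ∈ Subgroup.closure S := by
  have : g ∈ (Subgroup.closure S).map (MonoidHom.fst G H) := by
    rw [MonoidHom.map_closure]; exact h ▸ Subgroup.mem_top g
  obtain ⟨⟨_, h⟩, hm, rfl⟩ := this
  exact ⟨h, hm⟩

theorem exists_fst_of_closure {G H : Type*} [Group G] [Group H] {S : Set (G × H)}
    (h : Subgroup.closure (Prod.snd '' S) = ⊤) (k : H) : ∃ g, (g, k) ∈ Subgroup.closure S := by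
  have : k ∈ (Subgroup.closure S).map (MonoidHom.snd G H) := by
    rw [MonoidHom.map_closure]; exact h ▸ Subgroup.mem_top k
  obtain ⟨⟨g, _⟩, hm, rfl⟩ := this
  exact ⟨g, hm⟩

end Cfsg.Agent.Lib.Fischer
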