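import Cfsg.Agent.Lib.Fischer.Lines
import Cfsg.Agent.Lib.Fischer.Gram
import Cfsg.Agent.Lib.Invol.SpTransvection

set_option autoImplicit false

/-! # Fischer's theory of 3-transpositions: the symplectic case -/

namespace Cfsg.Agent.Lib.Fischer

open Subgroup Cfsg.Agent.Lib.Core Cfsg.Agent.Lib.Invol Equiv Cfsg.Agent.Lib.GL.Alt Matrix
open scoped Pointwise commutatorElement

variable {G : Type*} [Group G]

/-- all singular lines have at most three points -/
def Thin (D : Set G) : Prop := ∀ l, IsLine D l → ∀ x ∈ l, ∀ z ∈ l, ∀ u ∈ l, ∀ v ∈ l, x ≠ z → u ≠ x →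
  u ≠ z → v ≠ x → v ≠ z → v = u

theorem eq_one_of_commute {D : Set G} (hD : IsThreeTranspositionClass D) (hZ : center G = ⊥)
    {g : G} (h : ∀ d ∈ D, Commute g d) : g = 1 := by
  rw [← mem_bot, ← hZ, mem_center_iff]
  intro k
  have : closure D ≤ centralizer {g} := (closure_le _).mpr fun d hd =>
    mem_centralizer_singleton_iff.mpr (h d hd).symm
  exact mem_centralizer_singleton_iff.mp (this (hD.2.2 ▸ mem_top k))

variable [Finite G]

namespace Fi
variable {D : Set G} (hF : Fi D)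
include hF

theorem comm_third (hT : Thick D) (h3 : Thin D) {l : Set G} (h : IsLine D l) {x z u p : G}
    (hx : x ∈ l) (hz : z ∈ l) (hu : u ∈ l) (hxz : x ≠ z) (hux : u ≠ x) (huz : u ≠ z) (hp : p ∈ D)
    (h1 : ¬ Commute p x) (h2 : ¬ Commute p z) : Commute p u := by
  obtain ⟨v, hv, hpv⟩ := hF.exists_comm hT h hp
  rwa [h3 l h x hx z hz u hu v hv hxz hux huz (fun e => h1 (e ▸ hpv)) (fun e => h2 (e ▸ hpv))] at hpv

theorem thin_aux (hT : Thick D) (h3 : Thin D) {x y w v : G} (hx : x ∈ D) (hy : y ∈ D) (hw : w ∈ D)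
    (hv : v ∈ D) (hxy : ¬ Commute x y) (h1 : ¬ Commute w x) (h2 : ¬ Commute w y)
    (h4 : ¬ Commute w (cj x y)) (hvx : Commute v x) (hvy : Commute v y) : Commute v w := by
  have hD := hF.cl
  by_contra hvw
  have hne : v ≠ x := fun e => hxy (e ▸ hvy)
  have hl := isLine_line hx (u := v) ⟨hv, hne, hvx.symm⟩
  obtain ⟨u, hu, hux, huv⟩ := hT x hx v ⟨hv, hne, hvx.symm⟩
  have k := fun p hp h1 h2 => hF.comm_third hT h3 hl (p := p) (left_mem_line hx)
    (right_mem_line hv) hu hne.symm hux huv hp h1 h2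
  have k1 := k w hw h1 fun h => hvw h.symm
  have k2 := k _ (cj_mem_D hD hw y)
    (by rw [commute_cj_left hD.1 hy, ← cj_comm hD.1 hx hy hxy]; exact h4)
    fun h => hvw (commute_of_cj hvy h.symm)
  have k3 := commute_of_cj' hD.1 hy hw (fun h => h2 h.symm) k1.symm k2.symm
  exact hxy (hF.line_two hl hu (right_mem_line hv) huv hy k3.symm hvy.symm (left_mem_line hx)).symm

/-- no affine planes -/
theorem thin_line (hT : Thick D) (h3 : Thin D) {x y w : G} (hx : x ∈ D) (hy : y ∈ D) (hw : w ∈ D)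
    (hxy : ¬ Commute x y) (h1 : ¬ Commute w x) (h2 : ¬ Commute w y) : Commute w (cj x y) := by
  have hD := hF.cl
  by_contra h4
  have h5 : ¬ Commute (cj y w) x := by
    rw [commute_cj_left hD.1 hy, ← cj_comm hD.1 hx hy hxy]; exact h4
  obtain ⟨u, hu, hux, huy⟩ := hF.exists_comm_nc hy hx fun e => hxy (e ▸ Commute.refl _)
  have third : ∀ u ∈ perp D x, ¬ Commute u y → ∃ v ∈ perp D x, Commute v y ∧
      ∀ p ∈ D, ¬ Commute p x → Commute p v → ¬ Commute p u := fun u hu huy => by
    obtain ⟨v, hv, hvx, hvu⟩ := hT x hx u hu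
    have hl := isLine_line hx hu
    refine ⟨v, ⟨hv.1, hvx, hl.comm (left_mem_line hx) hv⟩, (hF.comm_third hT h3 hl
      (left_mem_line hx) (right_mem_line hu.1) hv hu.2.1.symm hvx hvu hy (fun h => hxy h.symm)
      fun h => huy h.symm).symm, fun p hp k1 k2 => ?_⟩
    exact hF.nc_of_two hl hp hv (left_mem_line hx) k2 k1 (right_mem_line hu.1) hvu.symm
  obtain ⟨u, hu, huy⟩ : ∃ u ∈ perp D x, ¬ Commute u y := by
    by_contra h
    push Not at h
    exact hF.not_perp_subset hx hy hxy fun w hw => (h w hw).symm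
  obtain ⟨v0, hv0, hv0y, -⟩ := third u hu huy
  have := hF.perp_no_split hx (X := {v | v ∈ perp D x ∧ Commute v y}) (fun v hv => hv.1)
    ⟨hv0, hv0y⟩ fun v hv u hu hu' => by
      have huy : ¬ Commute u y := fun h => hu' ⟨hu, h⟩
      obtain ⟨t, ht, hty, k⟩ := third u hu huy
      have htw := hF.thin_aux hT h3 hx hy hw ht.1 hxy h1 h2 h4 ht.2.2.symm hty
      exact hF.thin_aux hT h3 hy hw hu.1 hv.1.1 (fun h => h2 h.symm) huy
        (fun h => k w hw h1 htw.symm h.symm)
        (fun h => k _ (cj_mem_D hD hw y) h5 (commute_cj_of hty htw).symm h.symm) hv.2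
        (hF.thin_aux hT h3 hx hy hw hv.1.1 hxy h1 h2 h4 hv.1.2.2.symm hv.2)
  exact huy (this.ge hu).2

theorem exists_sp_model (hT : Thick D) (h3 : Thin D) (hZ : center G = ⊥) :
    ∃ (m : ℕ) (a : G → Fin m ⊕ Fin m → ZMod 2),
      (∀ d ∈ D, ∀ e ∈ D, sympBilin m (ZMod 2) (a d) (a e) = 0 ↔ Commute d e) ∧
      (∀ v, v ≠ 0 → ∃ d ∈ D, a d = v) ∧ (∀ d ∈ D, a d ≠ 0) ∧
      (∀ d ∈ D, ∀ e ∈ D, ¬ Commute d e → a (cj d e) = a d + a e) ∧
      (∀ d ∈ D, ∀ e ∈ D, a d = a e → d = e) ∧
      Nonempty (G ≃* symplecticGroup (Fin m) (ZMod 2)) := by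
  classical
  have hD := hF.cl
  obtain ⟨m, a, ha, hspan⟩ := exists_gram_alt
    (fun d e : G => if d ∈ D ∧ e ∈ D ∧ ¬ Commute d e then (1 : ZMod 2) else 0)
    (fun d e => by simp only [Commute.symm_iff (a := e), and_left_comm])
    (fun d => by simp)
  have hc : ∀ d ∈ D, ∀ e ∈ D, Commute d e → sympBilin m (ZMod 2) (a d) (a e) = 0 :=
    fun d hd e he h => by simp [ha, h]
  have hn : ∀ d ∈ D, ∀ e ∈ D, ¬ Commute d e → sympBilin m (ZMod 2) (a d) (a e) = 1 :=
    fun d hd e he h => by simp [ha, h, hd, he]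
  have h0 : ∀ d ∈ D, ∀ e ∈ D, sympBilin m (ZMod 2) (a d) (a e) = 0 ↔ Commute d e :=
    fun d hd e he => ⟨fun h => by_contra fun h' => by simp [hn d hd e he h'] at h, hc d hd e he⟩
  have ext : ∀ v, (∀ e ∈ D, sympBilin m (ZMod 2) (a e) v = 0) → v ∈ Submodule.span (ZMod 2)
      (a '' D) → v = 0 := fun v hv hm => by
    refine eq_zero_of_sympBilin fun u => ?_
    have : u ∈ Submodule.span (ZMod 2) (Set.range a) := hspan ▸ Submodule.mem_top
    refine Submodule.span_induction (p := fun u _ => sympBilin m (ZMod 2) u v = 0) ?_ (by simp)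
      (fun x y _ _ hx hy => by simp [hx, hy]) (fun c x _ hx => by simp [hx]) this
    rintro _ ⟨e, rfl⟩
    by_cases he : e ∈ D
    · exact hv e he
    · refine Submodule.span_induction (p := fun v _ => sympBilin m (ZMod 2) (a e) v = 0) ?_
        (by simp) (fun x y _ _ hx hy => by simp [hx, hy]) (fun c x _ hx => by simp [hx]) hm
      rintro _ ⟨d, -, rfl⟩
      simp [ha, he]
  have hspan' : Submodule.span (ZMod 2) (a '' D) = ⊤ := by
    rw [eq_top_iff, ← hspan, Submodule.span_le]
    rintro _ ⟨e, rfl⟩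
    by_cases he : e ∈ D
    · exact Submodule.subset_span ⟨e, he, rfl⟩
    · have : a e = 0 := by
        refine eq_zero_of_sympBilin fun u => ?_
        have : u ∈ Submodule.span (ZMod 2) (Set.range a) := hspan ▸ Submodule.mem_top
        refine Submodule.span_induction (p := fun u _ => sympBilin m (ZMod 2) u (a e) = 0) ?_
          (by simp) (fun x y _ _ hx hy => by simp [hx, hy]) (fun c x _ hx => by simp [hx]) this
        rintro _ ⟨d, rfl⟩
        simp [ha, he]
      rw [this]; exact Submodule.zero_mem _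
  replace ext : ∀ v, (∀ e ∈ D, sympBilin m (ZMod 2) (a e) v = 0) → v = 0 :=
    fun v hv => ext v hv (hspan' ▸ Submodule.mem_top)
  have ext3 : ∀ x ∈ D, ∀ y ∈ D, ∀ z ∈ D, (∀ e ∈ D, Commute e x → Commute e y → Commute e z) →
      (∀ e ∈ D, Commute e x → Commute e z → Commute e y) →
      (∀ e ∈ D, Commute e y → Commute e z → Commute e x) →
      (∀ e ∈ D, ¬ Commute e x → ¬ Commute e y → Commute e z) → a z = a x + a y := by
    intro x hx y hy z hz k1 k2 k3 k4
    rw [← sub_eq_zero]
    refine ext _ fun e he => ?_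
    rw [map_sub, map_add]
    by_cases l1 : Commute e x <;> by_cases l2 : Commute e y
    · rw [hc e he x hx l1, hc e he y hy l2, hc e he z hz (k1 e he l1 l2)]; rfl
    · rw [hc e he x hx l1, hn e he y hy l2, hn e he z hz fun h => l2 (k2 e he l1 h)]; rfl
    · rw [hn e he x hx l1, hc e he y hy l2, hn e he z hz fun h => l1 (k3 e he l2 h)]; rfl
    · rw [hn e he x hx l1, hn e he y hy l2, hc e he z hz (k4 e he l1 l2)]; rfl
  have hadd : ∀ d ∈ D, ∀ e ∈ D, ¬ Commute d e → a (cj d e) = a d + a e := fun d hd e he h =>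
    ext3 d hd e he _ (cj_mem_D hD he d) (fun p _ => commute_cj_of) (fun p _ => commute_of_cj)
      (fun p _ => commute_of_cj' hD.1 hd he h) fun p hp => hF.thin_line hT h3 hd he hp h
  have hne : ∀ d ∈ D, a d ≠ 0 := fun d hd h => by
    obtain ⟨e, he, hde⟩ := hF.exists_nc hd
    have := hn d hd e he hde
    simp [h] at this
  have hinj : ∀ d ∈ D, ∀ e ∈ D, a d = a e → d = e := fun d hd e he h =>
    hF.eq_of_pair hd he fun w hw _ _ => by rw [← h0 d hd w hw, ← h0 e he w hw, h]
  have hsurj : ∀ v, v ≠ 0 → ∃ d ∈ D, a d = v := fun v => by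
    have : v ∈ Submodule.span (ZMod 2) (a '' D) := hspan' ▸ Submodule.mem_top
    refine Submodule.span_induction (p := fun v _ => v ≠ 0 → ∃ d ∈ D, a d = v) (fun x hx _ => hx)
      (fun h => absurd rfl h) (fun x y _ _ hx hy hxy => ?_) (fun c x _ hx h => ?_) this
    · by_cases h1 : x = 0
      · rw [h1, zero_add] at hxy ⊢; exact hy hxy
      by_cases h2 : y = 0
      · rw [h2, add_zero] at hxy ⊢; exact hx hxy
      obtain ⟨d, hd, rfl⟩ := hx h1
      obtain ⟨e, he, rfl⟩ := hy h2
      by_cases h : Commute d e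
      · have hde : e ≠ d := fun h' => hxy (by
          rw [h']; ext i; exact CharTwo.add_self_eq_zero _)
        obtain ⟨z, hz, hzd, hze⟩ := hT d hd e ⟨he, hde, h⟩
        have hl := isLine_line hd (u := e) ⟨he, hde, h⟩
        have md := left_mem_line (u := e) hd
        have me := right_mem_line (x := d) he
        exact ⟨z, hz.1, ext3 d hd e he z hz.1 hz.2
          (fun p hp k1 k2 => hF.line_two hl md hz hzd.symm hp k1 k2 me)
          (fun p hp k1 k2 => hF.line_two hl me hz hze.symm hp k1 k2 md)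
          fun p hp => hF.comm_third hT h3 hl md me hz hde.symm hzd hze hp⟩
      · exact ⟨_, cj_mem_D hD he d, hadd d hd e he h⟩
    · obtain rfl | rfl : c = 0 ∨ c = 1 := by clear h; revert c; decide
      · simp at h
      · simpa using hx (by simpa using h)
  refine ⟨m, a, h0, hsurj, hne, hadd, hinj, ?_⟩
  let S : Set (G × symplecticGroup (Fin m) (ZMod 2)) := (fun d => (d, spT (a d) 1)) '' D
  have hS : ∀ p ∈ closure S, ∀ e ∈ D, p.2.1 *ᵥ a e = a (cj p.1 e) := fun p hp => by
    refine closure_induction_left (p := fun p _ => ∀ e ∈ D, p.2.1 *ᵥ a e = a (cj p.1 e))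
      (by simp) ?_ ?_ hp
    all_goals
      rintro _ ⟨d, hd, rfl⟩ q _ ih e he
    · rw [Prod.snd_mul, Prod.fst_mul, sp_mul_mulVec, ih e he, cj_mul, spT_mulVec, one_mul]
      have he' := cj_mem_D hD he q.1
      by_cases h : Commute d (cj q.1 e)
      · rw [hc _ he' d hd h.symm, cj_of_commute h]; simp
      · rw [hn _ he' d hd fun h' => h h'.symm, hadd d hd _ he' h, one_smul, add_comm]
    · have : (d, spT (a d) 1)⁻¹ = (d, spT (a d) 1) := by
        refine inv_eq_of_mul_eq_one_right (Prod.ext (threeTransp_mul_self hD.1 hd) (sp_ext fun v => ?_))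
        rw [Prod.snd_mul, sp_mul_mulVec, spT_mulVec, spT_mulVec, Prod.snd_one, sp_one_mulVec]
        simp only [map_add, map_smul, LinearMap.add_apply, LinearMap.smul_apply, sympBilin_self,
          one_mul, smul_eq_mul, mul_zero, add_zero, add_assoc, ← add_smul,
          CharTwo.add_self_eq_zero, zero_smul]
      rw [this, Prod.snd_mul, Prod.fst_mul, sp_mul_mulVec, ih e he, cj_mul, spT_mulVec, one_mul]
      have he' := cj_mem_D hD he q.1
      by_cases h : Commute d (cj q.1 e)
      · rw [hc _ he' d hd h.symm, cj_of_commute h]; simp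
      · rw [hn _ he' d hd fun h' => h h'.symm, hadd d hd _ he' h, one_smul, add_comm]
  obtain ⟨e⟩ := iso_of_graph (closure S) (exists_snd_of_closure (by
      rw [Set.image_image]; simpa using hD.2.2)) (exists_fst_of_closure (by
      rw [eq_top_iff, ← closure_spT]
      refine closure_mono ?_
      rintro _ ⟨v, hv, c, hc, rfl⟩
      obtain ⟨d, hd, rfl⟩ := hsurj v hv
      obtain rfl : c = 1 := by revert c; decide
      exact ⟨_, ⟨d, hd, rfl⟩, rfl⟩))
    (fun g hg => eq_one_of_commute hD hZ fun d hd => by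
      have := hS _ hg d hd
      rw [sp_one_mulVec] at this
      exact cj_eq_self_iff.mp (hinj _ hd _ (cj_mem_D hD hd g) this).symm) ⊥ fun h => by
      refine ⟨fun hh => mem_bot.mpr (sp_ext fun v => ?_), fun hh => mem_bot.mp hh ▸ one_mem _⟩
      by_cases hv : v = 0
      · simp [hv]
      obtain ⟨d, hd, rfl⟩ := hsurj v hv
      rw [hS _ hh d hd, cj_one, sp_one_mulVec]
  exact ⟨e.trans QuotientGroup.quotientBot⟩

end Fi

end Cfsg.Agent.Lib.Fischer
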