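import Cfsg.Agent.Lib.Fischer.S5

set_option autoImplicit false

/-! # Fischer's theory of 3-transpositions: singular lines -/

namespace Cfsg.Agent.Lib.Fischer

open Subgroup Cfsg.Agent.Lib.Core Cfsg.Agent.Lib.Invol Equiv
open scoped Pointwise commutatorElement

variable {G : Type*} [Group G]

theorem even_ncard_of_involution {α : Type*} {s : Set α} (hs : s.Finite) (f : α → α)
    (h1 : ∀ a ∈ s, f a ∈ s) (h2 : ∀ a ∈ s, f (f a) = a) (h3 : ∀ a ∈ s, f a ≠ a) : Even s.ncard := by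
  rw [Set.ncard_eq_toFinset_card s hs, ← ZMod.natCast_eq_zero_iff_even]
  have := Finset.sum_involution (s := hs.toFinset) (f := fun _ => (1 : ZMod 2)) (fun a _ => f a)
    (fun _ _ => rfl) (fun a ha _ => h3 a (by simpa using ha))
    (fun a ha => by simpa using h1 a (by simpa using ha)) (fun a ha => h2 a (by simpa using ha))
  simpa using this

theorem exists_A5 {D : Set G} (hD : IsThreeTranspositionSet D) {a b c d e : G} (ha : a ∈ D)
    (hb : b ∈ D) (hc : c ∈ D) (hd : d ∈ D) (he : e ∈ D) (hab : ¬ Commute a b) (hbc : ¬ Commute b c)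
    (hcd : ¬ Commute c d) (hde : ¬ Commute d e) (hac : Commute a c) (had : Commute a d)
    (hae : Commute a e) (hbd : Commute b d) (hbe : Commute b e) (hce : Commute c e) :
    ∃ φ : Perm (Fin 6) →* G, φ (swap 0 1) = a ∧ φ (swap 1 2) = b ∧ φ (swap 2 3) = c ∧
      φ (swap 3 4) = d ∧ φ (swap 4 5) = e := by
  have h1 := threeTransp_mul_self hD ha
  have h2 := threeTransp_mul_self hD hb
  have h3 := threeTransp_mul_self hD hc
  have h4 := threeTransp_mul_self hD hd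
  have h5 := threeTransp_mul_self hD he
  have h6 := threeTransp_braid hD ha hb hab
  have h7 := threeTransp_braid hD hb hc hbc
  have h8 := threeTransp_braid hD hc hd hcd
  have h9 := threeTransp_braid hD hd he hde
  obtain ⟨φ, hφ⟩ := exists_hom_perm_of_coxRel (s := fun n => [a, b, c, d, e].getD n 1) (n := 5)
    ⟨fun i hi => by interval_cases i <;> assumption,
     fun i j hij hj => by
      have : i < 3 := by omega
      interval_cases j <;> interval_cases i <;> first | omega | assumption,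
     fun i hi => by
      have : i < 4 := by omega
      interval_cases i <;> assumption⟩
  exact ⟨φ, hφ 0, hφ 1, hφ 2, hφ 3, hφ 4⟩

theorem commute_map_swap {n : ℕ} (φ : Perm (Fin n) →* G) {i j k l : Fin n}
    (h : [i, j, k, l].Nodup) : Commute (φ (swap i j)) (φ (swap k l)) :=
  (Perm.disjoint_swap_swap h).commute.map φ

/-- the singular line `{x, u}^⊥⊥` -/
def line (D : Set G) (x u : G) : Set G :=
  {v | v ∈ D ∧ ∀ w ∈ D, Commute w x → Commute w u → Commute w v}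

def IsLine (D l : Set G) : Prop := ∃ x ∈ D, ∃ u ∈ perp D x, l = line D x u

theorem left_mem_line {D : Set G} {x u : G} (hx : x ∈ D) : x ∈ line D x u :=
  ⟨hx, fun _ _ h _ => h⟩

theorem right_mem_line {D : Set G} {x u : G} (hu : u ∈ D) : u ∈ line D x u :=
  ⟨hu, fun _ _ _ h => h⟩

theorem isLine_line {D : Set G} {x u : G} (hx : x ∈ D) (hu : u ∈ perp D x) :
    IsLine D (line D x u) := ⟨x, hx, u, hu, rfl⟩

theorem image_line {D : Set G} (hD : IsThreeTranspositionClass D) (g x u : G) :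
    cj g '' line D x u = line D (cj g x) (cj g u) := by
  ext v
  constructor
  · rintro ⟨v, hv, rfl⟩
    refine ⟨cj_mem_D hD hv.1 g, fun w hw h1 h2 => ?_⟩
    rw [← cj_cj_inv g w, commute_cj] at h1 h2 ⊢
    exact hv.2 _ (cj_mem_D hD hw _) h1 h2
  · intro hv
    refine ⟨cj g⁻¹ v, ⟨cj_mem_D hD hv.1 _, fun w hw h1 h2 => ?_⟩, by simp⟩
    rw [← commute_cj (g := g), cj_cj_inv]
    exact hv.2 _ (cj_mem_D hD hw _) (commute_cj.mpr h1) (commute_cj.mpr h2)

theorem IsLine.sub {D l : Set G} (h : IsLine D l) : l ⊆ D := by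
  obtain ⟨x, -, u, -, rfl⟩ := h
  exact fun v hv => hv.1

theorem IsLine.comm {D l : Set G} (h : IsLine D l) {a b : G} (ha : a ∈ l) (hb : b ∈ l) :
    Commute a b := by
  obtain ⟨x, hx, u, hu, rfl⟩ := h
  exact hb.2 a ha.1 (ha.2 x hx (Commute.refl x) hu.2.2).symm
    (ha.2 u hu.1 hu.2.2.symm (Commute.refl u)).symm

theorem IsLine.image {D l : Set G} (hD : IsThreeTranspositionClass D) (h : IsLine D l) (g : G) :
    IsLine D (cj g '' l) := by
  obtain ⟨x, hx, u, hu, rfl⟩ := h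
  exact ⟨_, cj_mem_D hD hx g, _, (cj_mem_perp hD).mpr hu, image_line hD g x u⟩

theorem IsLine.exists_ne {D l : Set G} (h : IsLine D l) (a : G) : ∃ b ∈ l, b ≠ a := by
  obtain ⟨x, hx, u, hu, rfl⟩ := h
  by_cases h : x = a
  · exact ⟨u, right_mem_line hu.1, h ▸ hu.2.1⟩
  · exact ⟨x, left_mem_line hx, h⟩

/-- all singular lines have at least three points -/
def Thick (D : Set G) : Prop := ∀ x ∈ D, ∀ u ∈ perp D x, ∃ v ∈ line D x u, v ≠ x ∧ v ≠ u

variable [Finite G]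

namespace Fi
variable {D : Set G} (hF : Fi D)
include hF

theorem exists_comm_nc {x z : G} (hx : x ∈ D) (hz : z ∈ D) (hne : x ≠ z) :
    ∃ w ∈ D, Commute w z ∧ ¬ Commute w x := by
  by_contra h
  push Not at h
  have hzx := h z hz (Commute.refl z)
  obtain ⟨g, h1, h2⟩ := hF.pair_perp hz (b := x) ⟨hx, hne, hzx⟩ hx ⟨hz, hne.symm, hzx.symm⟩
  refine hne (hF.eq_of_pair hx hz fun w hw _ _ => ⟨fun h3 => ?_, fun h3 => (h w hw h3.symm).symm⟩)
  rw [← h1, ← cj_cj_inv g w, commute_cj] at h3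
  have := h _ (cj_mem_D hF.cl hw _) h3.symm
  rw [← commute_cj (g := g), cj_cj_inv, h2] at this
  exact this.symm

theorem line_two {l : Set G} (h : IsLine D l) {a b p : G} (ha : a ∈ l) (hb : b ∈ l) (hab : a ≠ b)
    (hp : p ∈ D) (h1 : Commute p a) (h2 : Commute p b) {v : G} (hv : v ∈ l) : Commute p v := by
  have hc := h.comm ha hb
  obtain ⟨x, hx, u, hu, rfl⟩ := h
  obtain ⟨g, rfl, rfl⟩ := hF.pair_perp hx hu ha.1 ⟨hb.1, hab.symm, hc⟩
  have e : cj g '' {w | w ∈ D ∧ Commute w x ∧ Commute w u} =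
      {w | w ∈ D ∧ Commute w (cj g x) ∧ Commute w (cj g u)} := by
    ext w
    constructor
    · rintro ⟨w, hw, rfl⟩
      exact ⟨cj_mem_D hF.cl hw.1 g, commute_cj.mpr hw.2.1, commute_cj.mpr hw.2.2⟩
    · intro hw
      rw [← cj_cj_inv g w] at hw ⊢
      exact ⟨_, ⟨(cj_mem_D_iff hF.cl).mp hw.1, commute_cj.mp hw.2.1, commute_cj.mp hw.2.2⟩, rfl⟩
  have := Set.eq_of_subset_of_ncard_le (s := {w | w ∈ D ∧ Commute w x ∧ Commute w u})
    (t := {w | w ∈ D ∧ Commute w (cj g x) ∧ Commute w (cj g u)})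
    (fun w hw => ⟨hw.1, ha.2 w hw.1 hw.2.1 hw.2.2, hb.2 w hw.1 hw.2.1 hw.2.2⟩)
    (by rw [← e, Set.ncard_image_of_injective _ (cj_injective g)])
  have h3 := this.ge ⟨hp, h1, h2⟩
  exact hv.2 p hp h3.2.1 h3.2.2

theorem line_eq {l : Set G} (h : IsLine D l) {a b : G} (ha : a ∈ l) (hb : b ∈ l) (hab : a ≠ b) :
    l = line D a b := by
  ext v
  refine ⟨fun hv => ⟨h.sub hv, fun w hw h1 h2 => hF.line_two h ha hb hab hw h1 h2 hv⟩, fun hv => ?_⟩
  obtain ⟨x, hx, u, hu, rfl⟩ := h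
  exact ⟨hv.1, fun w hw h1 h2 => hv.2 w hw (ha.2 w hw h1 h2) (hb.2 w hw h1 h2)⟩

theorem line_unique {l l' : Set G} (h : IsLine D l) (h' : IsLine D l') {a b : G} (ha : a ∈ l)
    (hb : b ∈ l) (ha' : a ∈ l') (hb' : b ∈ l') (hab : a ≠ b) : l = l' :=
  (hF.line_eq h ha hb hab).trans (hF.line_eq h' ha' hb' hab).symm

theorem line_ncard {l l' : Set G} (h : IsLine D l) (h' : IsLine D l') : l.ncard = l'.ncard := by
  obtain ⟨x, hx, u, hu, rfl⟩ := h
  obtain ⟨x', hx', u', hu', rfl⟩ := h'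
  obtain ⟨g, rfl, rfl⟩ := hF.pair_perp hx hu hx' hu'
  rw [← image_line hF.cl, Set.ncard_image_of_injective _ (cj_injective g)]

/-- the lines `l ^ (a ∘ w)` coincide -/
theorem image_cj_eq {l : Set G} (h : IsLine D l) {w a b : G} (hw : w ∈ D) (ha : a ∈ l) (hb : b ∈ l)
    (h1 : ¬ Commute w a) (h2 : ¬ Commute w b) : cj (cj w a) '' l = cj (cj w b) '' l := by
  have hD := hF.cl
  by_cases hab : a = b
  · rw [hab]
  have ha' := h.sub ha
  have hb' := h.sub hb
  have hc := h.comm ha hb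
  have e : ∀ {a b}, a ∈ D → b ∈ D → ¬ Commute w a → ¬ Commute w b → Commute a b →
      cj (cj w a) b = cj a (cj b w) := fun {a b} ha hb h1 h2 hc => by
    rw [cj_comm hD.1 hw ha h1, ← cj_comm hD.1 hw hb h2, ← cj_cj_cj a w b, cj_of_commute hc]
  refine hF.line_unique (h.image hD _) (h.image hD _) (a := w) (b := cj a (cj b w))
    ⟨a, ha, cj_cj_right hD.1 hw ha' h1⟩ ⟨b, hb, e ha' hb' h1 h2 hc⟩
    ⟨b, hb, cj_cj_right hD.1 hw hb' h2⟩
    ⟨a, ha, by rw [e hb' ha' h2 h1 hc.symm, cj_comm_of_commute hc]⟩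
    fun h3 => hab (eq_of_cj_cj hD hw ha' hb' h1 h2 h3)

theorem trans_mem {l : Set G} (h : IsLine D l) {w a b c : G} (hw : w ∈ D) (ha : a ∈ l) (hb : b ∈ l)
    (h1 : ¬ Commute w a) (h2 : ¬ Commute w b) (hc : c ∈ l) : cj (cj w a) (cj (cj w b) c) ∈ l := by
  have : cj (cj w b) c ∈ cj (cj w a) '' l := hF.image_cj_eq h hw ha hb h1 h2 ▸ ⟨c, hc, rfl⟩
  obtain ⟨d, hd, h3⟩ := this
  rwa [← h3, cj_cj hF.set (cj_mem_D hF.cl (h.sub ha) w)]

omit [Finite G] in
/-- description of the translation through products -/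
theorem trans_eq_iff {w a b c d : G} (hw : w ∈ D) (hc : c ∈ D) (hd : d ∈ D)
    (h3 : ¬ Commute w c) (h4 : ¬ Commute w d) :
    cj (cj w a) (cj (cj w b) c) = d ↔ Commute (d * a * b * c) w := by
  have hD := hF.cl
  rw [← cj_eq_self_iff, cj_mul, cj_mul, cj_mul, cj_eq_iff hD.1 hd, ← cj_comm hD.1 hw hc h3,
    ← cj_comm hD.1 hw hd h4, ← cj_inj (g := w) (y := d)]
  conv_lhs => lhs; rw [← cj_cj hD.1 hw c, cj_cj_cj, cj_cj_cj, cj_cj hD.1 hw]

theorem trans_nc {l : Set G} (h : IsLine D l) {w a b c : G} (hw : w ∈ D) (ha : a ∈ l) (hb : b ∈ l)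
    (h1 : ¬ Commute w a) (h2 : ¬ Commute w b) (hc : c ∈ l) (h3 : ¬ Commute w c) :
    ¬ Commute w (cj (cj w a) (cj (cj w b) c)) := by
  intro h4
  have h5 := hF.trans_mem h hw ha hb h1 h2 hc
  have h6 : ∀ e ∈ l, Commute (cj w e) (cj (cj w a) (cj (cj w b) c)) := fun e he =>
    (commute_cj_of h4.symm (h.comm h5 he)).symm
  have h7 := cj_of_commute (h6 a ha)
  rw [cj_cj hF.set (cj_mem_D hF.cl (h.sub ha) w)] at h7
  have h8 := cj_of_commute (h6 b hb)
  rw [← h7, cj_cj hF.set (cj_mem_D hF.cl (h.sub hb) w)] at h8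
  rw [← h7, ← h8] at h4
  exact h3 h4

omit [Finite G] in
theorem eq_of_commute_mul {w a b : G} (hw : w ∈ D) (ha : a ∈ D) (hb : b ∈ D) (h1 : ¬ Commute w a)
    (h : Commute (a * b) w) : a = b :=
  by_contra fun hab => h1 (threeTransp_commute_mul_two hF.set ha hb hw hab h.symm).1

theorem exists_fourth {l : Set G} (h : IsLine D l) {w a b c : G} (hw : w ∈ D) (ha : a ∈ l)
    (hb : b ∈ l) (hc : c ∈ l) (h1 : ¬ Commute w a) (h2 : ¬ Commute w b) (h3 : ¬ Commute w c) :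
    ∃ d ∈ l, ¬ Commute w d ∧ Commute (d * a * b * c) w :=
  ⟨_, hF.trans_mem h hw ha hb h1 h2 hc, hF.trans_nc h hw ha hb h1 h2 hc h3,
    (hF.trans_eq_iff hw (h.sub hc) (h.sub (hF.trans_mem h hw ha hb h1 h2 hc)) h3
      (hF.trans_nc h hw ha hb h1 h2 hc h3)).mp rfl⟩

theorem trans_ne {l : Set G} (h : IsLine D l) {w a b c : G} (hw : w ∈ D) (ha : a ∈ l) (hb : b ∈ l)
    (h1 : ¬ Commute w a) (hab : a ≠ b) (hc : c ∈ l) (h3 : ¬ Commute w c) :
    cj (cj w a) (cj (cj w b) c) ≠ c := by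
  intro h4
  rw [hF.trans_eq_iff hw (h.sub hc) (h.sub hc) h3 h3, (h.comm hc ha).eq, mul_assoc, mul_assoc,
    (h.comm hb hc).eq, ← mul_assoc c, threeTransp_mul_self hF.set (h.sub hc), one_mul] at h4
  exact hab (hF.eq_of_commute_mul hw (h.sub ha) (h.sub hb) h1 h4)

theorem even_nc {l : Set G} (h : IsLine D l) {w a b : G} (hw : w ∈ D) (ha : a ∈ l) (hb : b ∈ l)
    (h1 : ¬ Commute w a) (h2 : ¬ Commute w b) (hab : a ≠ b) :
    Even {c | c ∈ l ∧ ¬ Commute w c}.ncard := by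
  refine even_ncard_of_involution (Set.toFinite _) (fun c => cj (cj w a) (cj (cj w b) c))
    (fun c hc => ⟨hF.trans_mem h hw ha hb h1 h2 hc.1, hF.trans_nc h hw ha hb h1 h2 hc.1 hc.2⟩)
    (fun c _ => ?_) fun c hc => hF.trans_ne h hw ha hb h1 hab hc.1 hc.2
  rw [cj_comm_of_commute (commute_cj.mpr (h.comm hb ha)),
    cj_cj hF.set (cj_mem_D hF.cl (h.sub ha) w), cj_cj hF.set (cj_mem_D hF.cl (h.sub hb) w)]

omit [Finite G] hF in
theorem _root_.Cfsg.Agent.Lib.Fischer.IsLine.exists_three [Finite G] (hF : Fi D) (hT : Thick D)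
    {l : Set G} (h : IsLine D l) {a b : G} (ha : a ∈ l) (hb : b ∈ l) (hab : a ≠ b) :
    ∃ c ∈ l, c ≠ a ∧ c ≠ b := by
  rw [hF.line_eq h ha hb hab]
  exact hT a (h.sub ha) b ⟨h.sub hb, hab.symm, h.comm ha hb⟩

theorem nc_of_two {l : Set G} (h : IsLine D l) {w z a c : G} (hw : w ∈ D) (hz : z ∈ l) (ha : a ∈ l)
    (h1 : Commute w z) (h2 : ¬ Commute w a) (hc : c ∈ l) (hcz : c ≠ z) : ¬ Commute w c :=
  fun h3 => h2 (hF.line_two h hc hz hcz hw h3 h1 ha)

theorem odd_ncard (hT : Thick D) {l : Set G} (h : IsLine D l) : Odd l.ncard := by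
  obtain ⟨z, hz, -⟩ := h.exists_ne 1
  obtain ⟨a, ha, haz⟩ := h.exists_ne z
  obtain ⟨b, hb, hba, hbz⟩ := h.exists_three hF hT ha hz haz
  obtain ⟨w, hw, h1, h2⟩ := hF.exists_comm_nc (h.sub ha) (h.sub hz) haz
  have h3 := hF.even_nc h hw ha hb h2 (hF.nc_of_two h hw hz ha h1 h2 hb hbz) hba.symm
  have h4 : l = insert z {c | c ∈ l ∧ ¬ Commute w c} := by
    ext c
    refine ⟨fun hc => ?_, ?_⟩
    · by_cases hcz : c = z
      · exact Or.inl hcz
      · exact Or.inr ⟨hc, hF.nc_of_two h hw hz ha h1 h2 hc hcz⟩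
    · rintro (rfl | hc)
      exacts [hz, hc.1]
  rw [h4, Set.ncard_insert_of_notMem (fun h5 => h5.2 h1)]
  exact h3.add_one

/-- the polar space axiom -/
theorem exists_comm (hT : Thick D) {l : Set G} (h : IsLine D l) {p : G} (hp : p ∈ D) :
    ∃ z ∈ l, Commute p z := by
  by_contra hn
  push Not at hn
  obtain ⟨z, hz, -⟩ := h.exists_ne 1
  obtain ⟨a, ha, haz⟩ := h.exists_ne z
  have h3 := hF.even_nc h hp ha hz (hn a ha) (hn z hz) haz
  rw [show {c | c ∈ l ∧ ¬ Commute p c} = l from Set.ext fun c => ⟨fun hc => hc.1,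
    fun hc => ⟨hc, hn c hc⟩⟩] at h3
  exact Nat.not_even_iff_odd.mpr (hF.odd_ncard hT h) h3

theorem cycle {l : Set G} (h : IsLine D l) {x u z v w y : G} (hx : x ∈ l) (hu : u ∈ l)
    (hz : z ∈ l) (hv : v ∈ l) (hw : w ∈ D) (hy : y ∈ D) (hux : u ≠ x) (huz : u ≠ z) (hvx : v ≠ x)
    (hvz : v ≠ z) (hvu : v ≠ u) (hwz : Commute w z) (hwx : ¬ Commute w x) (hyx : Commute y x)
    (hyz : ¬ Commute y z) (hwy : Commute w y) :
    cj (cj w x) (cj (cj w u) v) = cj (cj y z) (cj (cj y u) v) := by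
  have hD := hF.cl
  have hwu := hF.nc_of_two h hw hz hx hwz hwx hu huz
  have hwv := hF.nc_of_two h hw hz hx hwz hwx hv hvz
  have hyu := hF.nc_of_two h hy hx hz hyx hyz hu hux
  have hyv := hF.nc_of_two h hy hx hz hyx hyz hv hvx
  have hx' := h.sub hx
  have hu' := h.sub hu
  have hz' := h.sub hz
  have hv' := h.sub hv
  have nc : ∀ {p a : G}, p ∈ D → a ∈ l → ¬ Commute p a → ¬ Commute p v → ¬ Commute v (cj p a) :=
    fun hp ha h1 h2 h3 => h2 (commute_of_cj' hD.1 hp (h.sub ha) h1 (h.comm hv ha) h3).symm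
  obtain ⟨φ, rfl, rfl, rfl, rfl, rfl⟩ := exists_A5 hD.1 hx' hw hu' hy hz' (fun h => hwx h.symm) hwu
    (fun h => hyu h.symm) hyz (h.comm hx hu) hyx.symm (h.comm hx hz) hwy hwz (h.comm hu hz)
  have n1 := nc hw hx hwx hwv
  have n2 := nc hy hz hyz hyv
  have n3 := nc hy hu hyu hyv
  have m1 := cj_mem_D hD hx' (φ (swap 1 2))
  have m2 := cj_mem_D hD hz' (φ (swap 3 4))
  have m3 := cj_mem_D hD hu' (φ (swap 3 4))
  have m5 := cj_mem_D hD hu' (φ (swap 1 2))
  have m4 := cj_mem_D hD m5 (cj (φ (swap 3 4)) (φ (swap 4 5)))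
  have n4 : ¬ Commute v (cj (cj (φ (swap 3 4)) (φ (swap 4 5))) (cj (φ (swap 1 2)) (φ (swap 2 3)))) := by
    refine fun h1 => hF.nc_of_two h m4 hu hx ?_ ?_ hv hvu h1.symm
    · simp only [cj_map_swap]; exact commute_map_swap φ (by decide)
    · rw [commute_cj_left hD.1 m2, cj_of_commute (g := cj _ _), commute_cj_left hD.1 hw]
      · exact fun h1 => hwx (commute_of_cj' hD.1 hw hx' hwx (h.comm hu hx) h1 |> fun h2 =>
          absurd h2.symm hwu)
      · simp only [cj_map_swap]; exact commute_map_swap φ (by decide)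
  simp only [cj_map_swap] at n1 n2 n3 n4 m1 m2 m3 m4 m5 ⊢
  change ¬ Commute v (φ (swap 0 2)) at n1
  change ¬ Commute v (φ (swap 3 5)) at n2
  change ¬ Commute v (φ (swap 2 4)) at n3
  change ¬ Commute v (φ (swap 1 5)) at n4
  change φ (swap 0 2) ∈ D at m1
  change φ (swap 3 5) ∈ D at m2
  change φ (swap 2 4) ∈ D at m3
  change φ (swap 1 5) ∈ D at m4
  change φ (swap 1 3) ∈ D at m5
  change cj (φ (swap 0 2)) (cj (φ (swap 1 3)) v) = cj (φ (swap 3 5)) (cj (φ (swap 2 4)) v)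
  have k1 := commute_cj_cj hD hv' m1 m2 n1 n2 (commute_map_swap φ (by decide))
  have k2 := commute_cj_cj hD hv' m4 m3 n4 n3 (commute_map_swap φ (by decide))
  rw [← cj_mul, ← map_mul] at k1 k2
  have hne : φ (swap 1 2) ≠ φ (swap 3 4) := fun h1 => hwx (h1 ▸ hyx)
  have e : cj (φ (swap 0 2 * swap 3 5)) '' l = cj (φ (swap 1 5 * swap 2 4)) '' l :=
    hF.line_unique (h.image hD _) (h.image hD _) ⟨_, hx, by rw [cj_map_swap]; congr 1; decide⟩
      ⟨_, hz, by rw [cj_map_swap]; congr 1; decide⟩ ⟨_, hz, by rw [cj_map_swap]; congr 1; decide⟩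
      ⟨_, hu, by rw [cj_map_swap]; congr 1; decide⟩ hne
  have e2 : cj (φ (swap 0 2 * swap 3 5)) v = cj (φ (swap 1 5 * swap 2 4)) v := by
    by_contra h1
    refine hwv (hF.line_two (h.image hD (φ (swap 0 2 * swap 3 5))) ⟨v, hv, rfl⟩
      (e ▸ ⟨v, hv, rfl⟩) h1 hv' k1 k2 ⟨_, hx, ?_⟩).symm
    rw [cj_map_swap]; congr 1; decide
  rw [← cj_inj (g := φ (swap 3 5 * swap 1 3)), ← cj_mul, ← cj_mul, ← cj_mul, ← cj_mul, ← map_mul,
    ← map_mul, ← map_mul, ← map_mul]
  convert e2 using 3 <;> decide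

theorem cycle' (hT : Thick D) {l : Set G} (h : IsLine D l) {x u z v w y : G} (hx : x ∈ l)
    (hu : u ∈ l) (hz : z ∈ l) (hv : v ∈ l) (hw : w ∈ D) (hy : y ∈ D) (hux : u ≠ x) (huz : u ≠ z)
    (hvx : v ≠ x) (hvz : v ≠ z) (hvu : v ≠ u) (hwz : Commute w z) (hwx : ¬ Commute w x)
    (hyx : Commute y x) (hyz : ¬ Commute y z) :
    ∃ d ∈ l, d ≠ x ∧ d ≠ z ∧ Commute (d * x * u * v) w ∧ Commute (d * z * u * v) y := by
  have hD := hF.cl
  have hx' := h.sub hx
  obtain ⟨_, ⟨a, ha, rfl⟩, h1⟩ := hF.exists_comm hT (h.image hD (cj w x)) hy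
  have haz : a ≠ z := fun h2 => hyz (by
    rwa [h2, cj_of_commute (commute_cj_of hwz.symm (h.comm hz hx)).symm] at h1)
  have hwa := hF.nc_of_two h hw hz hx hwz hwx ha haz
  have e : cj (cj w x) a = cj x (cj a w) := by
    rw [cj_comm hD.1 hw hx' hwx, ← cj_comm hD.1 hw (h.sub ha) hwa, ← cj_cj_cj x w a,
      cj_of_commute (h.comm hx ha)]
  rw [e] at h1
  have hc : ∀ b ∈ l, Commute (cj x (cj a w)) b ↔ Commute w b := fun b hb => by
    rw [commute_cj_left hD.1 hx', commute_cj_left hD.1 (h.sub ha), cj_of_commute (h.comm hx hb),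
      cj_of_commute (h.comm ha hb)]
  have hw' := cj_mem_D hD (cj_mem_D hD hw a) x
  have n : ∀ b ∈ l, b ≠ z → ¬ Commute (cj x (cj a w)) b := fun b hb hbz => by
    rw [hc b hb]; exact hF.nc_of_two h hw hz hx hwz hwx hb hbz
  have hxz : x ≠ z := fun h2 => hwx (h2 ▸ hwz)
  have k := hF.cycle h hx hu hz hv hw' hy hux huz hvx hvz hvu ((hc z hz).mpr hwz) (n x hx hxz) hyx
    hyz h1.symm
  have hd := hF.trans_mem h hw' hx hu (n x hx hxz) (n u hu huz) hv
  have hd1 := hF.trans_nc h hw' hx hu (n x hx hxz) (n u hu huz) hv (n v hv hvz)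
  have hyu := hF.nc_of_two h hy hx hz hyx hyz hu hux
  have hyv := hF.nc_of_two h hy hx hz hyx hyz hv hvx
  have hd2 := hF.trans_nc h hy hz hu hyz hyu hv hyv
  rw [← k] at hd2
  refine ⟨_, hd, fun h2 => hd2 (by rw [h2]; exact hyx),
    fun h2 => hd1 (by rw [h2]; exact (hc z hz).mpr hwz), ?_,
    (hF.trans_eq_iff hy (h.sub hv) (h.sub hd) hyv hd2).mp k.symm⟩
  have k2 := (hF.trans_eq_iff hw' (h.sub hv) (h.sub hd) (n v hv hvz) hd1).mp rfl
  have k3 : ∀ b ∈ l, Commute (cj (cj (cj x (cj a w)) x) (cj (cj (cj x (cj a w)) u) v) * x * u * v)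
      b := fun b hb =>
    (((h.comm hd hb).mul_left (h.comm hx hb)).mul_left (h.comm hu hb)).mul_left (h.comm hv hb)
  exact commute_of_cj (k3 a ha) (commute_of_cj (k3 x hx) k2)

end Fi

/-- cancellation in the elementary abelian group generated by a line -/
theorem commute_of_mul_eq {p q r w : G} (h1 : Commute p w) (h2 : Commute q w) (e : r = p * q) :
    Commute r w := e ▸ h1.mul_left h2

namespace Fi
variable {D : Set G} (hF : Fi D)
include hF

theorem subset_five (hT : Thick D) {l : Set G} (h : IsLine D l) {x z u v : G} (hx : x ∈ l)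
    (hz : z ∈ l) (hu : u ∈ l) (hv : v ∈ l) (hxz : x ≠ z) (hux : u ≠ x) (huz : u ≠ z)
    (hvx : v ≠ x) (hvz : v ≠ z) (hvu : v ≠ u) :
    ∃ d ∈ l, d ≠ x ∧ d ≠ z ∧ d ≠ u ∧ d ≠ v ∧ ∀ y ∈ l, y = x ∨ y = z ∨ y = u ∨ y = v ∨ y = d := by
  have hD := hF.cl
  obtain ⟨w, hw, hwz, hwx⟩ := hF.exists_comm_nc (h.sub hx) (h.sub hz) hxz
  obtain ⟨y, hy, hyx, hyz⟩ := hF.exists_comm_nc (h.sub hz) (h.sub hx) hxz.symm
  obtain ⟨p, hp, hpu, hpz⟩ := hF.exists_comm_nc (h.sub hz) (h.sub hu) huz.symm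
  have nw : ∀ b ∈ l, b ≠ z → ¬ Commute w b := fun b hb => hF.nc_of_two h hw hz hx hwz hwx hb
  -- basic product manipulation
  have key : ∀ {a b c d e f t : G}, a ∈ l → b ∈ l → c ∈ l → d ∈ l → e ∈ l → f ∈ l →
      Commute (a * b * c * d) t → Commute (e * f * c * d) t → Commute (a * b * e * f) t := by
    intro a b c d e f t ha hb hc hd he hf h1 h2
    refine commute_of_mul_eq h1 h2 ?_
    have h3 : c * d * (e * f) = e * f * (c * d) :=
      (((h.comm hc he).mul_right (h.comm hc hf)).mul_left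
        ((h.comm hd he).mul_right (h.comm hd hf))).eq
    calc a * b * e * f = a * b * (e * f) * (c * (d * c) * d) := by
          rw [(h.comm hd hc).eq, ← mul_assoc c, threeTransp_mul_self hD.1 (h.sub hc), one_mul,
            threeTransp_mul_self hD.1 (h.sub hd)]; group
      _ = a * b * (e * f * (c * d)) * (c * d) := by group
      _ = _ := by rw [← h3]; group
  have sw1 : ∀ {a b c d t : G}, a ∈ l → b ∈ l → Commute (a * b * c * d) t →
      Commute (b * a * c * d) t := fun ha hb h1 => by rwa [← (h.comm ha hb).eq]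
  have sw2 : ∀ {a b c d t : G}, b ∈ l → c ∈ l → Commute (a * b * c * d) t →
      Commute (a * c * b * d) t := fun {a b c d t} hb hc h1 => by
    rwa [mul_assoc a c b, ← (h.comm hb hc).eq, ← mul_assoc]
  have sw3 : ∀ {a b c d t : G}, c ∈ l → d ∈ l → Commute (a * b * c * d) t →
      Commute (a * b * d * c) t := fun hc hd h1 => by
    rwa [mul_assoc _ _ _, ← (h.comm hc hd).eq, ← mul_assoc]
  have uq : ∀ {a a' b c d t : G}, a ∈ l → a' ∈ l → t ∈ D → ¬ Commute t a →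
      Commute (a * b * c * d) t → Commute (a' * b * c * d) t → a = a' := by
    intro a a' b c d t ha ha' ht h0 h1 h2
    refine hF.eq_of_commute_mul ht (h.sub ha) (h.sub ha') h0 (commute_of_mul_eq h1 h2.inv_left ?_)
    conv_lhs => rw [← inv_eq hD.1 (h.sub ha')]
    group
  have dbl : ∀ {a b c t : G}, a ∈ l → b ∈ l → c ∈ l → t ∈ D → ¬ Commute t b →
      Commute (a * a * b * c) t → b = c := fun ha hb hc ht h0 h1 =>
    hF.eq_of_commute_mul ht (h.sub hb) (h.sub hc) h0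
      (by rwa [threeTransp_mul_self hD.1 (h.sub ha), one_mul] at h1)
  obtain ⟨d, hd, hdx, hdz, k1, k2⟩ := hF.cycle' hT h hx hu hz hv hw hy hux huz hvx hvz hvu hwz hwx
    hyx hyz
  have hdu : d ≠ u := fun e => hvx (dbl hu hx hv hw hwx (sw2 hx hu (e ▸ k1))).symm
  have hdv : d ≠ v := fun e =>
    hux (dbl hv hx hu hw hwx (sw2 hx hv (sw3 hu hv (e ▸ k1)))).symm
  refine ⟨d, hd, hdx, hdz, hdu, hdv, fun t ht => ?_⟩
  by_contra hn
  push Not at hn
  obtain ⟨htx, htz, htu, htv, htd⟩ := hn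
  obtain ⟨s, hs, hsw, k3⟩ := hF.exists_fourth h hw hu hv ht (nw u hu huz) (nw v hv hvz)
    (nw t ht htz)
  -- `s u v t` centralises `y`
  have k4 : Commute (d * x * s * t) w := key hd hx hu hv hs ht k1 (sw2 hu ht (sw3 hv ht k3))
  obtain ⟨s', hs', hs'x, -, k5, k6⟩ := hF.cycle' hT h hx hd hz ht hw hy hdx hdz htx htz htd hwz hwx
    hyx hyz
  obtain rfl : s = s' := uq hs hs' hw hsw (sw1 hx hs (sw2 hd hs (sw1 hd hx k4))) (sw1 hx hs' (sw1 hs' hx k5))
  have k7 : Commute (u * v * s * t) y :=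
    key hu hv hz hd hs ht
      (sw3 hd hz (sw2 hd hv (sw3 hz hv (sw1 hd hu (sw2 hz hu k2))))) (sw3 hd hz (sw2 hd ht (sw3 hz ht (sw2 hz hd k6))))
  -- compare with `p`
  obtain ⟨s1, hs1, -, -, k8, k9⟩ := hF.cycle' hT h hu hv hz ht hw hp hvu hvz htu htz htv hwz
    (nw u hu huz) hpu hpz
  obtain rfl : s = s1 := uq hs hs1 hw hsw k3 k8
  have hpx := hF.nc_of_two h hp hu hz hpu hpz hx hux.symm
  obtain ⟨s2, hs2, -, -, k10, k11⟩ := hF.cycle' hT h hu hv hx ht hy hp hvu hvx htu htx htv hyx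
    (hF.nc_of_two h hy hx hz hyx hyz hu hux) hpu hpx
  obtain rfl : s = s2 := uq hs hs2 hy (hF.nc_of_two h hy hx hz hyx hyz hs hs'x)
    (sw1 hu hs (sw2 hv hs k7)) k10
  exact hxz (uq hx hz hp hpx (sw1 hs hx k11) (sw1 hs hz k9))

/-- the product of the five points of a line is central -/
theorem prod_five (hT : Thick D) {l : Set G} (h : IsLine D l) {x z u v d : G} (hx : x ∈ l)
    (hz : z ∈ l) (hu : u ∈ l) (hv : v ∈ l) (hd : d ∈ l) (hxz : x ≠ z) (hxu : x ≠ u) (hxv : x ≠ v)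
    (hxd : x ≠ d) (hzu : z ≠ u) (hzv : z ≠ v) (hzd : z ≠ d) (huv : u ≠ v) (hud : u ≠ d)
    (hvd : v ≠ d) : x * z * u * v * d ∈ center G := by
  have hD := hF.cl
  have all : ∀ {x z u v d : G}, x ∈ l → z ∈ l → u ∈ l → v ∈ l → d ∈ l → x ≠ z → x ≠ u → x ≠ v →
      x ≠ d → z ≠ u → z ≠ v → z ≠ d → u ≠ v → u ≠ d → v ≠ d →
      ∀ y ∈ l, y = x ∨ y = z ∨ y = u ∨ y = v ∨ y = d := by
    intro x z u v d hx hz hu hv hd hxz hxu hxv hxd hzu hzv hzd huv hud hvd
    obtain ⟨d', -, -, -, -, -, hall⟩ := hF.subset_five hT h hx hz hu hv hxz hxu.symm hzu.symm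
      hxv.symm hzv.symm huv.symm
    rcases hall d hd with h1 | h1 | h1 | h1 | h1
    exacts [absurd h1.symm hxd, absurd h1.symm hzd, absurd h1.symm hud, absurd h1.symm hvd,
      h1 ▸ hall]
  have aux : ∀ {x z u v d : G}, x ∈ l → z ∈ l → u ∈ l → v ∈ l → d ∈ l → x ≠ z → x ≠ u → x ≠ v →
      x ≠ d → z ≠ u → z ≠ v → z ≠ d → u ≠ v → u ≠ d → v ≠ d →
      ∀ p ∈ D, Commute p x → Commute (x * z * u * v * d) p := by
    intro x z u v d hx hz hu hv hd hxz hxu hxv hxd hzu hzv hzd huv hud hvd p hp hpx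
    by_cases hpz : Commute p z
    · have := fun b hb => (hF.line_two h hx hz hxz hp hpx hpz (v := b) hb).symm
      exact ((((this x hx).mul_left (this z hz)).mul_left (this u hu)).mul_left
        (this v hv)).mul_left (this d hd)
    have n : ∀ b ∈ l, b ≠ x → ¬ Commute p b := fun b hb => hF.nc_of_two h hp hx hz hpx hpz hb
    obtain ⟨e, he, hpe, k⟩ := hF.exists_fourth h hp hz hu hv hpz (n u hu hxu.symm)
      (n v hv hxv.symm)
    have z2 := threeTransp_mul_self hD.1 (h.sub hz)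
    have u2 := threeTransp_mul_self hD.1 (h.sub hu)
    have v2 := threeTransp_mul_self hD.1 (h.sub hv)
    rcases all hx hz hu hv hd hxz hxu hxv hxd hzu hzv hzd huv hud hvd e he with
      rfl | rfl | rfl | rfl | rfl
    · exact absurd hpx hpe
    · rw [z2, one_mul] at k
      exact absurd (hF.eq_of_commute_mul hp (h.sub hu) (h.sub hv) (n u hu hxu.symm) k) huv
    · rw [(h.comm hu hz).eq, mul_assoc z, u2, mul_one] at k
      exact absurd (hF.eq_of_commute_mul hp (h.sub hz) (h.sub hv) hpz k) hzv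
    · rw [mul_assoc e z u, ((h.comm hv hz).mul_right (h.comm hv hu)).eq, mul_assoc, v2,
        mul_one] at k
      exact absurd (hF.eq_of_commute_mul hp (h.sub hz) (h.sub hu) hpz k) hzu
    · refine commute_of_mul_eq hpx.symm k ?_
      rw [mul_assoc e, mul_assoc e, (((h.comm he hz).mul_right (h.comm he hu)).mul_right
        (h.comm he hv) : Commute e (z * u * v)).eq]
      group
  rw [mem_center_iff]
  intro g
  have : closure D ≤ centralizer {x * z * u * v * d} := by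
    rw [closure_le]
    intro p hp
    refine mem_centralizer_singleton_iff.mpr (Commute.symm ?_)
    obtain ⟨y, hy, hpy⟩ := hF.exists_comm hT h hp
    rcases all hx hz hu hv hd hxz hxu hxv hxd hzu hzv hzd huv hud hvd y hy with
      rfl | rfl | rfl | rfl | rfl
    · exact aux hx hz hu hv hd hxz hxu hxv hxd hzu hzv hzd huv hud hvd p hp hpy
    · rw [(h.comm hx hz).eq]
      exact aux hz hx hu hv hd hxz.symm hzu hzv hzd hxu hxv hxd huv hud hvd p hp hpy
    · rw [((h.comm hx hu).mul_left (h.comm hz hu)).eq, ← mul_assoc]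
      exact aux hu hx hz hv hd hxu.symm hzu.symm huv hud hxz hxv hxd hzv hzd hvd p hp hpy
    · rw [(((h.comm hx hv).mul_left (h.comm hz hv)).mul_left (h.comm hu hv)).eq, ← mul_assoc,
        ← mul_assoc]
      exact aux hv hx hz hu hd hxv.symm hzv.symm huv.symm hvd hxz hxu hxd hzu hzd hud p hp hpy
    · rw [((((h.comm hx hd).mul_left (h.comm hz hd)).mul_left (h.comm hu hd)).mul_left
        (h.comm hv hd)).eq, ← mul_assoc, ← mul_assoc, ← mul_assoc]
      exact aux hd hx hz hu hv hxd.symm hzd.symm hud.symm hvd.symm hxz hxu hxv hzu hzv huv p hp hpy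
  exact mem_centralizer_singleton_iff.mp (this (hD.2.2 ▸ mem_top g))

/-- a noncentral normal `2`-subgroup of `⟨D_x⟩` makes the lines thick -/
theorem thick_of {x : G} (hx : x ∈ D) {N : Subgroup ↥(closure (perp D x))} [N.Normal]
    (hN : IsPGroup 2 N) (h : ¬ N ≤ center _) : Thick D := by
  have hD := hF.cl
  let H := closure (perp D x)
  obtain ⟨n, hn, hnc⟩ := SetLike.not_le_iff_exists.mp h
  obtain ⟨u, hu, hnu⟩ : ∃ u ∈ perp D x, ¬ Commute (n : G) u := by
    by_contra h1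
    push Not at h1
    refine hnc (mem_center_iff.mpr fun g => Subtype.ext ?_)
    have : H ≤ centralizer {(n : G)} := (closure_le _).mpr
      fun y hy => mem_centralizer_singleton_iff.mpr (h1 y hy).symm
    exact mem_centralizer_singleton_iff.mp (this g.2)
  let f := QuotientGroup.mk' N
  let u' : H := ⟨u, subset_closure hu⟩
  have hv : cj (n : G) u ∈ perp D x :=
    (cj_mem_perp_of_commute hD (commute_of_mem_closure_perp n.2)).mpr hu
  have h1 : f (cj n u') = f u' := by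
    rw [map_cj, show f n = 1 from (QuotientGroup.eq_one_iff n).mpr hn, cj_one]
  have hl : cj (n : G) u ∈ line D x u := by
    refine ⟨hv.1, fun w hw hwx hwu => ?_⟩
    by_cases hw1 : w = x
    · exact hw1 ▸ hv.2.2
    by_contra h3
    let w' : H := ⟨w, subset_closure ⟨hw, hw1, hwx.symm⟩⟩
    have h4 : w' * cj n u' * w' = cj n u' * w' * cj n u' :=
      Subtype.ext (threeTransp_braid hD.1 hw hv.1 h3)
    have h5 : Commute w' u' := Subtype.ext hwu
    have h6 := congrArg f h4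
    rw [map_mul, map_mul, map_mul, map_mul, h1, (h5.map f).eq, mul_right_inj, ← h1] at h6
    obtain ⟨k, hk⟩ := pow_eq_one_of_isPGroup hN (QuotientGroup.eq.mp h6)
    have h7 := congrArg Subtype.val hk
    rw [SubmonoidClass.coe_pow, coe_mul, coe_inv, inv_eq hD.1 hw] at h7
    exact h3 (commute_of_pow_two hD.1 hw hv.1 h7)
  intro x' hx' v hv'
  obtain ⟨g, rfl, rfl⟩ := hF.pair_perp hx hu hx' hv'
  rw [← image_line hD]
  exact ⟨_, ⟨_, hl, rfl⟩, by simpa using hv.2.1, by simpa using cj_ne_right hnu⟩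

end Fi

end Cfsg.Agent.Lib.Fischer
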