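import Cfsg.Agent.Lib.Fischer.Symp
import Cfsg.Agent.Lib.Fischer.SU2

set_option autoImplicit false

/-! # Fischer's theory of 3-transpositions: the unitary case, orientation of lines -/

namespace Cfsg.Agent.Lib.Fischer

open Subgroup Cfsg.Agent.Lib.Core Cfsg.Agent.Lib.Invol Equiv Cfsg.Agent.Spor
open scoped Pointwise commutatorElement

variable {G : Type*} [Group G]

/-- standing hypotheses of the unitary case -/
structure Base (D : Set G) (x b : G) : Prop where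
  fi : Fi D
  thick : Thick D
  five : ∀ l, IsLine D l → l.ncard = 5
  cen : center G = ⊥
  hx : x ∈ D
  hb : b ∈ D
  hxb : ¬ Commute x b

def ZZ (D : Set G) (x b : G) : Set G := {w | w ∈ D ∧ Commute x w ∧ Commute b w}

def ls (D : Set G) (x w : G) : Set G := {u | u ∈ line D x w ∧ u ≠ x}

/-- parametrisation of a punctured line -/
structure Par (D : Set G) (x w : G) (p : F4 → G) : Prop where
  inj : Function.Injective p
  mem : ∀ c, p c ∈ ls D x w
  surj : ∀ u ∈ ls D x w, ∃ c, p c = u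
  zero : p 0 = w

def Eqv (p p' : F4 → G) : Prop := ∃ g : F4, g ≠ 0 ∧ ∀ c, p' c = p (c * g)

theorem Eqv.refl (p : F4 → G) : Eqv p p := ⟨1, one_ne_zero, by simp⟩

theorem Eqv.symm {p p' : F4 → G} (h : Eqv p p') : Eqv p' p := by
  obtain ⟨g, hg, h⟩ := h
  exact ⟨g⁻¹, inv_ne_zero hg, fun c => by rw [h, inv_mul_cancel_right₀ hg]⟩

theorem Eqv.trans {p p' p'' : F4 → G} (h : Eqv p p') (h' : Eqv p' p'') : Eqv p p'' := by
  obtain ⟨g, hg, h⟩ := h
  obtain ⟨g', hg', h'⟩ := h'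
  exact ⟨g' * g, mul_ne_zero hg' hg, fun c => by rw [h', h, mul_assoc]⟩

theorem Eqv.push {p p' : F4 → G} (h : Eqv p p') (t : G) :
    Eqv (fun c => cj t (p c)) (fun c => cj t (p' c)) := by
  obtain ⟨g, hg, h⟩ := h
  exact ⟨g, hg, fun c => congrArg (cj t) (h c)⟩

theorem Par.hol {D : Set G} {x w : G} {p p' : F4 → G} (h : Par D x w p) (h' : Par D x w p')
    (hn : ∀ c, c ≠ 0 → p' c ≠ p c) : Eqv p p' := by
  choose σ hσ using fun c => h.surj _ (h'.mem c)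
  have h0 : σ 0 = 0 := h.inj (by rw [hσ, h'.zero, h.zero])
  have h1 : Function.Injective σ := fun c d e => h'.inj (by rw [← hσ, ← hσ, e])
  have h2 : ∀ c, c ≠ 0 → σ c ≠ c := fun c hc e => hn c hc (by rw [← hσ, e])
  have key : ∀ a b c : F4, a ≠ 0 → b ≠ 0 → c ≠ 0 → a ≠ b → a ≠ c → b ≠ c → a ≠ 1 → b ≠ F4.w →
    c ≠ F4.v → b = F4.w * a ∧ c = F4.v * a := by decide
  have n0 : ∀ c, c ≠ 0 → σ c ≠ 0 := fun c hc e => hc (h1 (e.trans h0.symm))
  obtain ⟨k1, k2⟩ := key (σ 1) (σ F4.w) (σ F4.v) (n0 _ (by decide)) (n0 _ (by decide))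
    (n0 _ (by decide)) (h1.ne (by decide)) (h1.ne (by decide)) (h1.ne (by decide))
    (h2 _ (by decide)) (h2 _ (by decide)) (h2 _ (by decide))
  refine ⟨σ 1, n0 _ (by decide), fun c => ?_⟩
  rw [← hσ]
  congr 1
  cases c
  · exact h0.trans (zero_mul _).symm
  · exact (one_mul _).symm
  · exact k1
  · exact k2

theorem Par.shift {D : Set G} {x w : G} {p : F4 → G} (h : Par D x w p) (f : G → G)
    (h1 : ∀ u ∈ ls D x w, f u ∈ ls D x w) (h2 : ∀ u, f (f u) = u) (h3 : ∀ u ∈ ls D x w, f u ≠ u)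
    {e : F4} (h4 : f w = p e) (d : F4) : f (p d) = p (d + e) := by
  choose σ hσ using fun c => h.surj _ (h1 _ (h.mem c))
  have k1 : ∀ c, σ (σ c) = c := fun c => h.inj (by rw [hσ, hσ, h2])
  have k2 : ∀ c, σ c ≠ c := fun c e => h3 _ (h.mem c) (by rw [← hσ, e])
  have k3 : σ 0 = e := h.inj (by rw [hσ, h.zero, h4])
  rw [← hσ]
  congr 1
  by_cases hd : d = 0
  · rw [hd, k3, zero_add]
  by_cases hde : d = e
  · rw [hde, ← k3, k1, CharTwo.add_self_eq_zero]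
  have key : ∀ d e s : F4, d ≠ 0 → d ≠ e → e ≠ 0 → s ≠ d → s ≠ 0 → s ≠ e → s = d + e := by decide
  exact key d e _ hd hde (k3 ▸ k2 0) (k2 d) (fun h => hde (by rw [← k1 d, h, k3]))
    fun h => hd (by rw [← k1 d, h, ← k3, k1])

variable [Finite G]

namespace Base
variable {D : Set G} {x b : G} (hB : Base D x b)
include hB

omit [Finite G] in
theorem cl : IsThreeTranspositionClass D := hB.fi.cl

omit [Finite G] in
theorem set : IsThreeTranspositionSet D := hB.fi.cl.1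

omit [Finite G] in
theorem Z_perp {w : G} (hw : w ∈ ZZ D x b) : w ∈ perp D x :=
  ⟨hw.1, fun h => hB.hxb (h ▸ hw.2.2).symm, hw.2.1⟩

omit [Finite G] in
theorem isLine {w : G} (hw : w ∈ perp D x) : IsLine D (line D x w) := isLine_line hB.hx hw

omit [Finite G] hB in
theorem self_mem_ls {w : G} (hw : w ∈ perp D x) : w ∈ ls D x w := ⟨right_mem_line hw.1, hw.2.1⟩

omit [Finite G] in
theorem ls_perp {w u : G} (hw : w ∈ perp D x) (hu : u ∈ ls D x w) : u ∈ perp D x :=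
  ⟨hu.1.1, hu.2, (hB.isLine hw).comm (left_mem_line hB.hx) hu.1⟩

theorem comm_ls {w u u' p : G} (hw : w ∈ perp D x) (hu : u ∈ ls D x w) (hu' : u' ∈ ls D x w)
    (hp : p ∈ D) (hpx : Commute p x) (h : Commute p u) : Commute p u' :=
  hB.fi.line_two (hB.isLine hw) (left_mem_line hB.hx) hu.1 hu.2.symm hp hpx h hu'.1

theorem comm_ls_iff {w u p : G} (hw : w ∈ perp D x) (hu : u ∈ ls D x w) (hp : p ∈ D)
    (hpx : Commute p x) : Commute p u ↔ Commute p w :=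
  ⟨hB.comm_ls hw hu (self_mem_ls hw) hp hpx, hB.comm_ls hw (self_mem_ls hw) hu hp hpx⟩

theorem comm_iff {w w' u u' : G} (hw : w ∈ perp D x) (hw' : w' ∈ perp D x) (hu : u ∈ ls D x w)
    (hu' : u' ∈ ls D x w') : Commute u u' ↔ Commute w w' := by
  rw [hB.comm_ls_iff hw' hu' hu.1.1 (hB.ls_perp hw hu).2.2.symm, Commute.symm_iff,
    hB.comm_ls_iff hw hu hw'.1 hw'.2.2.symm, Commute.symm_iff]

theorem eq_of_comm {w u u' p : G} (hw : w ∈ perp D x) (hu : u ∈ ls D x w) (hu' : u' ∈ ls D x w)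
    (hp : p ∈ D) (hpx : ¬ Commute p x) (h : Commute p u) (h' : Commute p u') : u = u' :=
  by_contra fun hne => hpx (hB.fi.line_two (hB.isLine hw) hu.1 hu'.1 hne hp h h'
    (left_mem_line hB.hx))

theorem exists_Z {u : G} (hu : u ∈ perp D x) : ∃ w ∈ ZZ D x b, u ∈ ls D x w := by
  obtain ⟨w, hw, h⟩ := hB.fi.exists_comm hB.thick (hB.isLine hu) hB.hb
  have hne : x ≠ w := fun e => hB.hxb (e ▸ h).symm
  refine ⟨w, ⟨hw.1, (hB.isLine hu).comm (left_mem_line hB.hx) hw, h⟩, ?_, hu.2.1⟩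
  rw [← hB.fi.line_eq (hB.isLine hu) (left_mem_line hB.hx) hw hne]
  exact right_mem_line hu.1

omit [Finite G] in
theorem cj_ls {g w u : G} (hg : Commute g x) (hu : u ∈ ls D x w) : cj g u ∈ ls D x (cj g w) := by
  refine ⟨?_, fun h => hu.2 ?_⟩
  · have : cj g u ∈ cj g '' line D x w := ⟨u, hu.1, rfl⟩
    rwa [image_line hB.cl, cj_of_commute hg] at this
  · rwa [← cj_of_commute hg, cj_inj] at h

omit [Finite G] in
theorem cj_Z {t w : G} (ht : t ∈ ZZ D x b) (hw : w ∈ ZZ D x b) : cj t w ∈ ZZ D x b :=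
  ⟨cj_mem_D hB.cl hw.1 t, commute_cj_of ht.2.1 hw.2.1, commute_cj_of ht.2.2 hw.2.2⟩

theorem exists_par {w : G} (hw : w ∈ perp D x) : ∃ p, Par D x w p := by
  have h1 : (ls D x w).ncard = 4 := by
    have := Set.ncard_sdiff_singleton_add_one (left_mem_line (D := D) (u := w) hB.hx)
    rw [hB.five _ (hB.isLine hw)] at this
    exact Nat.succ_injective this
  obtain ⟨e⟩ : Nonempty (F4 ≃ ls D x w) := Finite.card_eq.mp (by
    rw [Nat.card_coe_set_eq, h1, Nat.card_eq_fintype_card]; rfl)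
  refine ⟨fun c => e (c + e.symm ⟨w, self_mem_ls hw⟩), fun c d h => ?_, fun c => (e _).2,
    fun u hu => ⟨e.symm ⟨u, hu⟩ - e.symm ⟨w, self_mem_ls hw⟩, by simp⟩, by simp⟩
  simpa using e.injective (Subtype.ext h)

omit [Finite G] in
theorem par_push {t w : G} {p : F4 → G} (ht : t ∈ D) (htx : Commute t x) (h : Par D x w p) :
    Par D x (cj t w) fun c => cj t (p c) := by
  refine ⟨fun c d e => h.inj (cj_inj.mp e), fun c => hB.cj_ls htx (h.mem c), fun u hu => ?_,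
    by rw [h.zero]⟩
  have := hB.cj_ls htx hu
  rw [cj_cj hB.set ht] at this
  obtain ⟨c, hc⟩ := h.surj _ this
  exact ⟨c, by rw [hc, cj_cj hB.set ht]⟩

omit [Finite G] in
theorem par_edge {w w' : G} {p : F4 → G} (hw : w ∈ ZZ D x b) (hw' : w' ∈ ZZ D x b)
    (hn : ¬ Commute w w') (h : Par D x w p) : Par D x w' fun c => cj (cj w w') (p c) := by
  have := hB.par_push (hB.cj_Z hw hw').1 (hB.cj_Z hw hw').2.1.symm h
  rwa [cj_cj_left hB.set hw.1 hw'.1 hn] at this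

theorem triangle {w1 w2 w3 : G} {p : F4 → G} (h1 : w1 ∈ ZZ D x b) (h2 : w2 ∈ ZZ D x b)
    (h3 : w3 ∈ ZZ D x b) (n12 : ¬ Commute w1 w2) (n13 : ¬ Commute w1 w3) (n23 : ¬ Commute w2 w3)
    (h : Par D x w1 p) :
    Eqv (fun c => cj (cj w1 w3) (p c)) fun c => cj (cj w2 w3) (cj (cj w1 w2) (p c)) := by
  have hD := hB.set
  have t12 := hB.cj_Z h1 h2
  have t13 := hB.cj_Z h1 h3
  have t23 := hB.cj_Z h2 h3
  have p1 := hB.Z_perp h1
  by_cases hc : Commute (cj w2 w3) w1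
  · have e : cj w1 w3 = cj (cj w2 w3) (cj w1 w2) := by
      rw [← cj_cj_cj (cj w2 w3) w1, cj_of_commute hc, cj_cj_left hD h2.1 h3.1 n23]
    refine ⟨1, one_ne_zero, fun c => ?_⟩
    have k := cj_of_commute (hB.comm_ls p1 (self_mem_ls p1) (h.mem c) t23.1 t23.2.1.symm hc)
    simp only [mul_one]
    conv_rhs => rw [e, ← k, cj_cj_cj]
  refine (hB.par_edge h1 h3 n13 h).hol (hB.par_edge h2 h3 n23 (hB.par_edge h1 h2 n12 h))
    fun c hc0 e => hc0 (h.inj ?_)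
  have hu := h.mem c
  have hu2 := (hB.par_edge h1 h2 n12 h).mem c
  set u := p c
  have k : ∀ {t w u : G}, t ∈ ZZ D x b → w ∈ ZZ D x b → u ∈ ls D x w → ¬ Commute t w →
      ¬ Commute u t := fun ht hw hu hn h => hn ((hB.comm_ls_iff (hB.Z_perp hw) hu ht.1
        ht.2.1.symm).mp h.symm)
  have k12 := k t12 h1 hu fun h => not_commute_cj_self n12 h.symm
  have k13 := k t13 h1 hu fun h => not_commute_cj_self n13 h.symm
  have k23 := k t23 h2 hu2 fun h => not_commute_cj_self n23 h.symm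
  have k0 := k t23 h1 hu hc
  have e1 := cj_swap hD hu.1.1 t12.1 k12
  have e2 := cj_swap hD hu.1.1 t13.1 k13
  have e3 := cj_swap hD hu2.1.1 t23.1 k23
  have e4 : cj (cj w1 w2) (cj w1 w3) = cj u (cj w2 w3) := by
    conv_lhs => rw [← e1, ← e2, cj_cj_cj, ← e, e3]
  rw [cj_cj_cj, cj_comm hD hu.1.1 t23.1 k0, cj_comm hD h1.1 t23.1 fun h => hc h.symm, cj_inj] at e4
  rw [h.zero, e4]

theorem square {w1 w3 a a' : G} {p : F4 → G} (h1 : w1 ∈ ZZ D x b) (h3 : w3 ∈ ZZ D x b)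
    (ha : a ∈ ZZ D x b) (ha' : a' ∈ ZZ D x b) (hc : Commute w1 w3) (n1 : ¬ Commute w1 a)
    (n2 : ¬ Commute a w3) (n1' : ¬ Commute w1 a') (n2' : ¬ Commute a' w3) (h : Par D x w1 p) :
    Eqv (fun c => cj (cj a w3) (cj (cj w1 a) (p c))) fun c => cj (cj a' w3) (cj (cj w1 a') (p c)) := by
  have hD := hB.set
  have aux : ∀ a ∈ ZZ D x b, ¬ Commute w1 a → ¬ Commute a w3 → ¬ Commute a a' →
      Eqv (fun c => cj (cj a w3) (cj (cj w1 a) (p c)))
        fun c => cj (cj a' w3) (cj (cj w1 a') (p c)) := fun a ha n1 n2 n =>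
    (hB.triangle ha ha' h3 n n2 n2' (hB.par_edge h1 ha n1 h)).trans
      ((hB.triangle h1 ha ha' n1 n1' n h).symm.push _)
  by_cases n : Commute a a'
  swap
  · exact aux a ha n1 n2 n
  have := aux (cj w1 a) (hB.cj_Z h1 ha) (not_commute_cj_self n1)
    (fun h => n2 (commute_of_cj hc.symm h.symm).symm)
    (fun h => n1' (commute_of_cj' hD h1.1 ha.1 n1 n.symm h.symm).symm)
  convert this using 2 with c
  have p1 := hB.Z_perp h1
  have p3 := hB.Z_perp h3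
  have k1 : cj w1 (p c) = p c :=
    cj_of_commute ((hB.isLine p1).comm (right_mem_line h1.1) (h.mem c).1)
  have k2 := (hB.par_edge ha h3 n2 (hB.par_edge h1 ha n1 h)).mem c
  have k3 := cj_of_commute (hB.comm_ls p3 (self_mem_ls p3) k2 h1.1 h1.2.1.symm hc)
  rw [← k3, cj_cj hD h1.1, ← cj_cj_cj w1 (cj a w3), ← cj_cj_cj w1 a w3, cj_of_commute hc,
    ← cj_cj_cj w1 (cj w1 a), cj_cj hD h1.1, k1]

theorem exists_nbr {w w0 : G} (hw : w ∈ ZZ D x b) (hw0 : w0 ∈ ZZ D x b) (hc : Commute w0 w) :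
    ∃ a ∈ ZZ D x b, ¬ Commute w0 a ∧ ¬ Commute a w := by
  have hD := hB.cl
  have p0 := hB.Z_perp hw0
  obtain ⟨u, hu, hn⟩ : ∃ u ∈ perp D x, ¬ Commute w0 u := by
    obtain ⟨y, hy, h1, h2⟩ := hB.fi.exists_comm_nc hw0.1 hB.hx p0.2.1
    exact ⟨y, ⟨hy, fun e => h2 (e ▸ p0.2.2), h1.symm⟩, fun h => h2 h.symm⟩
  have := hB.fi.perp_no_split hB.hx (X := {w | w ∈ perp D x ∧ (¬ Commute w0 w ∨
      ∃ a ∈ perp D x, ¬ Commute w0 a ∧ ¬ Commute a w)}) (fun _ h => h.1) ⟨hu, Or.inl hn⟩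
    fun y hy z hz hz' => by
      by_contra hyz
      refine hz' ⟨hz, Or.inr ?_⟩
      by_cases h0 : Commute w0 y
      swap
      · exact ⟨y, hy.1, h0, hyz⟩
      obtain ⟨a, ha, h1, h2⟩ := hy.2.resolve_left (not_not.mpr h0)
      by_cases h3 : Commute a z
      swap
      · exact ⟨a, ha, h1, h3⟩
      exact ⟨cj y a, (cj_mem_perp_of_commute hD hy.1.2.2.symm).mpr ha,
        fun h => h1 (commute_of_cj h0 h),
        fun h => hyz (commute_of_cj' hD.1 hy.1.1 ha.1 (fun h => h2 h.symm) h3.symm h.symm).symm⟩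
  obtain ⟨a, ha, h1, h2⟩ := (this.ge (hB.Z_perp hw)).2.resolve_left (not_not.mpr hc)
  obtain ⟨a', ha', h3⟩ := hB.exists_Z ha
  have pa := hB.Z_perp ha'
  exact ⟨a', ha', fun h => h1 ((hB.comm_ls_iff pa h3 hw0.1 hw0.2.1.symm).mpr h),
    fun h => h2 ((hB.comm_ls_iff pa h3 hw.1 hw.2.1.symm).mpr h.symm).symm⟩

theorem Z_nonempty : ∃ w, w ∈ ZZ D x b := by
  obtain ⟨u, hu⟩ := hB.fi.exists_perp hB.hx
  obtain ⟨w, hw, -⟩ := hB.exists_Z (u := u) hu
  exact ⟨w, hw⟩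

/-- a coherent family of parametrisations -/
theorem exists_family : ∃ p : G → F4 → G, (∀ w ∈ ZZ D x b, Par D x w (p w)) ∧
    ∀ w ∈ ZZ D x b, ∀ w' ∈ ZZ D x b, ¬ Commute w w' →
      Eqv (p w') fun c => cj (cj w w') (p w c) := by
  have hD := hB.set
  obtain ⟨w0, hw0⟩ := hB.Z_nonempty
  obtain ⟨p0, h0⟩ := hB.exists_par (hB.Z_perp hw0)
  have : ∀ w, ∃ p, w ∈ ZZ D x b → Par D x w p ∧
      (¬ Commute w0 w → Eqv (fun c => cj (cj w0 w) (p0 c)) p) ∧
      (Commute w0 w → ∀ a ∈ ZZ D x b, ¬ Commute w0 a → ¬ Commute a w →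
        Eqv (fun c => cj (cj a w) (cj (cj w0 a) (p0 c))) p) := fun w => by
    by_cases hw : w ∈ ZZ D x b
    swap
    · exact ⟨p0, fun h => absurd h hw⟩
    by_cases hc : Commute w0 w
    · obtain ⟨a, ha, h1, h2⟩ := hB.exists_nbr hw hw0 hc
      exact ⟨_, fun _ => ⟨hB.par_edge ha hw h2 (hB.par_edge hw0 ha h1 h0), fun h => absurd hc h,
        fun _ a' ha' h3 h4 => hB.square hw0 hw ha' ha hc h3 h4 h1 h2 h0⟩⟩
    · exact ⟨_, fun _ => ⟨hB.par_edge hw0 hw hc h0, fun _ => Eqv.refl _, fun h => absurd h hc⟩⟩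
  choose p hp using this
  refine ⟨p, fun w hw => (hp w hw).1, ?_⟩
  have aux : ∀ w ∈ ZZ D x b, ∀ w' ∈ ZZ D x b, ¬ Commute w w' → ¬ Commute w0 w →
      Eqv (p w') fun c => cj (cj w w') (p w c) := fun w hw w' hw' hn h1 => by
    refine Eqv.trans ?_ (((hp w hw).2.1 h1).push _)
    by_cases h2 : Commute w0 w'
    · exact ((hp w' hw').2.2 h2 w hw h1 hn).symm
    · exact ((hp w' hw').2.1 h2).symm.trans (hB.triangle hw0 hw hw' h1 h2 hn h0)
  intro w hw w' hw' hn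
  by_cases h1 : Commute w0 w
  swap
  · exact aux w hw w' hw' hn h1
  by_cases h2 : Commute w0 w'
  swap
  · have := ((aux w' hw' w hw (fun h => hn h.symm) h2).push (cj w w')).symm
    convert this using 2 with c
    rw [cj_comm hD hw'.1 hw.1 fun h => hn h.symm, cj_cj hD (hB.cj_Z hw hw').1]
  obtain ⟨a, ha, h3, h4, h5⟩ : ∃ a ∈ ZZ D x b, ¬ Commute w0 a ∧ ¬ Commute a w ∧ ¬ Commute a w' := by
    obtain ⟨a, ha, h3, h4⟩ := hB.exists_nbr hw hw0 h1
    by_cases h5 : Commute a w'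
    · exact ⟨cj w a, hB.cj_Z hw ha, fun h => h3 (commute_of_cj h1 h),
        fun h => not_commute_cj_self (fun h => h4 h.symm) h.symm,
        fun h => hn (commute_of_cj' hD hw.1 ha.1 (fun h => h4 h.symm) h5.symm h.symm).symm⟩
    · exact ⟨a, ha, h3, h4, h5⟩
  exact (((hp w' hw').2.2 h2 a ha h3 h5).symm.trans
    (hB.triangle ha hw hw' h4 h5 hn (hB.par_edge hw0 ha h3 h0))).trans
    (((hp w hw).2.2 h1 a ha h3 h4).push _)

end Base

end Cfsg.Agent.Lib.Fischer
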