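import Cfsg.Agent.Lib.Fischer.Unit1

set_option autoImplicit false

/-! # Fischer's theory of 3-transpositions: the unitary case, coordinates -/

namespace Cfsg.Agent.Lib.Fischer

open Subgroup Cfsg.Agent.Lib.Core Cfsg.Agent.Lib.Invol Equiv Cfsg.Agent.Spor Matrix
open scoped Pointwise commutatorElement

variable {G : Type*} [Group G]

/-- the data of the unitary case -/
structure UM (D : Set G) (x b : G) (p : G → F4 → G) {n : ℕ} (a : G → Fin n → F4) : Prop
    extends Base D x b where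
  par : ∀ w ∈ ZZ D x b, Par D x w (p w)
  gc : ∀ w ∈ ZZ D x b, ∀ w' ∈ ZZ D x b, hf (a w) (a w') = 0 ↔ Commute w w'
  edge : ∀ w ∈ ZZ D x b, ∀ w' ∈ ZZ D x b, ¬ Commute w w' →
    ∀ c, cj (cj w w') (p w c) = p w' (c * hf (a w) (a w'))
  ee : hf (a x) (a x) = 0
  ff : hf (a b) (a b) = 0
  ef : hf (a x) (a b) = 1
  we : ∀ w ∈ ZZ D x b, hf (a w) (a x) = 0
  wf : ∀ w ∈ ZZ D x b, hf (a w) (a b) = 0
  dec : ∀ y, ∃ α β : F4, ∃ m ∈ Submodule.span F4 (a '' ZZ D x b), y = α • a x + β • a b + m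

theorem Base.exists_um [Finite G] {D : Set G} {x b : G} (hB : Base D x b) :
    ∃ (p : G → F4 → G) (n : ℕ) (a : G → Fin n → F4), UM D x b p a := by
  classical
  obtain ⟨p, hp, he⟩ := hB.exists_family
  have : ∀ w w', ∃ g : F4, w ∈ ZZ D x b → w' ∈ ZZ D x b → (g = 0 ↔ Commute w w') ∧
      (¬ Commute w w' → ∀ c, cj (cj w w') (p w c) = p w' (c * g)) := fun w w' => by
    by_cases h : w ∈ ZZ D x b ∧ w' ∈ ZZ D x b ∧ ¬ Commute w w'
    · obtain ⟨g, hg, h1⟩ := he w h.1 w' h.2.1 h.2.2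
      exact ⟨g, fun _ _ => ⟨⟨fun h => absurd h hg, fun h' => absurd h' h.2.2⟩, fun _ => h1⟩⟩
    · exact ⟨0, fun h1 h2 => ⟨⟨fun _ => by_contra fun h3 => h ⟨h1, h2, h3⟩, fun _ => rfl⟩,
        fun h3 => absurd ⟨h1, h2, h3⟩ h⟩⟩
  choose g hg using this
  have herm : ∀ w ∈ ZZ D x b, ∀ w' ∈ ZZ D x b, g w' w = fr (g w w') := fun w hw w' hw' => by
    by_cases h : Commute w w'
    · rw [(hg w w' hw hw').1.mpr h, (hg w' w hw' hw).1.mpr h.symm, map_zero]
    have h1 := (hg w' w hw' hw).2 (fun h' => h h'.symm) (1 * g w w')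
    rw [← (hg w w' hw hw').2 h, cj_comm hB.set hw'.1 hw.1 fun h' => h h'.symm,
      cj_cj hB.set (hB.cj_Z hw hw').1] at h1
    have h2 := (hp w hw).inj h1
    generalize g w w' = s at h2
    generalize g w' w = t at h2
    revert s t; decide
  have hxZ : x ∉ ZZ D x b := fun h => hB.hxb h.2.2.symm
  have hbZ : b ∉ ZZ D x b := fun h => hB.hxb h.2.1
  have hne : x ≠ b := fun h => hB.hxb (h ▸ Commute.refl x)
  obtain ⟨n, a, ha, hspan⟩ := exists_gram_herm isInvol_fr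
    (fun i j => if i ∈ ZZ D x b ∧ j ∈ ZZ D x b then g i j
      else if (i = x ∧ j = b) ∨ (i = b ∧ j = x) then 1 else 0) fun i j => by
      by_cases h : i ∈ ZZ D x b ∧ j ∈ ZZ D x b
      · rw [if_pos h, if_pos h.symm, herm i h.1 j h.2]
      · rw [if_neg h, if_neg fun h' => h h'.symm]
        by_cases h' : (i = x ∧ j = b) ∨ (i = b ∧ j = x)
        · rw [if_pos h', if_pos (by tauto), map_one]
        · rw [if_neg h', if_neg (by tauto), map_zero]
  have hZ : ∀ w ∈ ZZ D x b, ∀ w' ∈ ZZ D x b, hf (a w) (a w') = g w w' := fun w hw w' hw' => by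
    rw [ha, if_pos ⟨hw, hw'⟩]
  refine ⟨p, n, a, hB, hp, fun w hw w' hw' => by rw [hZ w hw w' hw']; exact (hg w w' hw hw').1,
    fun w hw w' hw' => by rw [hZ w hw w' hw']; exact (hg w w' hw hw').2, by simp [ha, hxZ, hne],
    by simp [ha, hbZ, hne.symm], by simp [ha, hxZ], fun w hw => ?_, fun w hw => ?_, fun y => ?_⟩
  · have : w ≠ b := fun h => hbZ (h ▸ hw)
    simp [ha, hxZ, hne, this]
  · have : w ≠ x := fun h => hxZ (h ▸ hw)
    simp [ha, hbZ, hne.symm, this]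
  · have hy : y ∈ Submodule.span F4 (Set.range a) := hspan ▸ Submodule.mem_top
    refine Submodule.span_induction (p := fun y _ => ∃ α β : F4,
      ∃ m ∈ Submodule.span F4 (a '' ZZ D x b), y = α • a x + β • a b + m) ?_
      ⟨0, 0, 0, Submodule.zero_mem _, by simp⟩ ?_ ?_ hy
    · rintro _ ⟨i, rfl⟩
      by_cases h1 : i ∈ ZZ D x b
      · exact ⟨0, 0, _, Submodule.subset_span ⟨i, h1, rfl⟩, by simp⟩
      by_cases h2 : i = x
      · exact ⟨1, 0, 0, Submodule.zero_mem _, by simp [h2]⟩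
      by_cases h3 : i = b
      · exact ⟨0, 1, 0, Submodule.zero_mem _, by simp [h3]⟩
      refine ⟨0, 0, 0, Submodule.zero_mem _, ?_⟩
      simp only [zero_smul, add_zero]
      refine hf_nondeg fun u => ?_
      have hu : u ∈ Submodule.span F4 (Set.range a) := hspan ▸ Submodule.mem_top
      refine Submodule.span_induction (p := fun u _ => hf u (a i) = 0) ?_ (by simp)
        (fun x y _ _ hx hy => by simp [hx, hy]) (fun c x _ hx => by simp [hx]) hu
      rintro _ ⟨j, rfl⟩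
      simp [ha, h1, h2, h3]
    · rintro _ _ _ _ ⟨α, β, m, hm, rfl⟩ ⟨α', β', m', hm', rfl⟩
      exact ⟨α + α', β + β', m + m', Submodule.add_mem _ hm hm', by module⟩
    · rintro c _ _ ⟨α, β, m, hm, rfl⟩
      exact ⟨c * α, c * β, c • m, Submodule.smul_mem _ _ hm, by module⟩

/-- `x ^ i` for `i ∈ {0, 1}` -/
def xp (x : G) (i : F4) : G := if i = 0 then 1 else x

/-- trace -/
def tr (c : F4) : F4 := c + fr c

def F2 (i : F4) : Prop := i = 0 ∨ i = 1

instance (i : F4) : Decidable (F2 i) := inferInstanceAs (Decidable (i = 0 ∨ i = 1))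

theorem F2_tr : ∀ c, F2 (tr c) := by decide

theorem F2.add : ∀ {i j}, F2 i → F2 j → F2 (i + j) := by decide

theorem F2_N : ∀ c, F2 (c * fr c) := by decide

theorem xp_zero (x : G) : xp x 0 = 1 := rfl

theorem xp_one (x : G) : xp x 1 = x := rfl

theorem xp_add {x : G} (hx : x * x = 1) {i j : F4} (hi : F2 i) (hj : F2 j) :
    xp x (i + j) = xp x i * xp x j := by
  rcases hi with rfl | rfl <;> rcases hj with rfl | rfl
  · exact (one_mul 1).symm
  · exact (one_mul x).symm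
  · exact (mul_one x).symm
  · exact hx.symm

theorem commute_xp {x g : G} (h : Commute g x) (i : F4) : Commute g (xp x i) := by
  unfold xp; split_ifs
  exacts [Commute.one_right g, h]

/-- the elements of `S` -/
def sw (x : G) (p : G → F4 → G) (w : G) (c : F4) : G := xp x (c * fr c) * (w * p w c)

/-- triples -/
@[ext] structure Tr (G : Type*) (n : ℕ) where
  g : G
  m : Fin n → F4
  γ : F4

instance {n : ℕ} : Monoid (Tr G n) where
  mul q r := ⟨q.g * r.g, q.m + r.m, q.γ + r.γ + hf r.m q.m⟩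
  one := ⟨1, 0, 0⟩
  mul_assoc q r s := Tr.ext (mul_assoc _ _ _) (add_assoc _ _ _) (by
    change q.γ + r.γ + hf r.m q.m + s.γ + hf s.m (q.m + r.m) =
      q.γ + (r.γ + s.γ + hf s.m r.m) + hf (r.m + s.m) q.m
    simp only [map_add, LinearMap.add_apply]; ring)
  one_mul q := Tr.ext (one_mul _) (zero_add _) (by change 0 + q.γ + hf q.m 0 = q.γ; simp)
  mul_one q := Tr.ext (mul_one _) (add_zero _) (by change q.γ + 0 + hf 0 q.m = q.γ; simp)

section
variable {n : ℕ}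
@[simp] theorem Tr.mul_g (q r : Tr G n) : (q * r).g = q.g * r.g := rfl
@[simp] theorem Tr.mul_m (q r : Tr G n) : (q * r).m = q.m + r.m := rfl
@[simp] theorem Tr.mul_γ (q r : Tr G n) : (q * r).γ = q.γ + r.γ + hf r.m q.m := rfl
@[simp] theorem Tr.one_g : (1 : Tr G n).g = 1 := rfl
@[simp] theorem Tr.one_m : (1 : Tr G n).m = 0 := rfl
@[simp] theorem Tr.one_γ : (1 : Tr G n).γ = 0 := rfl
end

def PP (D : Set G) (x b : G) (p : G → F4 → G) {n : ℕ} (a : G → Fin n → F4) : Set (Tr G n) :=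
  {q | ∃ w ∈ ZZ D x b, ∃ c i, F2 i ∧ q = ⟨xp x i * sw x p w c, c • a w, i⟩}

structure Mu (D : Set G) (x b : G) (p : G → F4 → G) {n : ℕ} (a : G → Fin n → F4) (g : G)
    (m : Fin n → F4) : Prop where
  me : hf m (a x) = 0
  mf : hf m (a b) = 0
  cx : Commute g x
  act : ∀ w ∈ ZZ D x b, ∀ d, cj g (p w d) = p w (d + hf m (a w))

section
variable {D : Set G} {x b : G} {p : G → F4 → G} {n : ℕ} {a : G → Fin n → F4}

theorem Mu.one : Mu D x b p a 1 0 := ⟨by simp, by simp, Commute.one_left x, by simp⟩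

theorem Mu.mul {g g' : G} {m m' : Fin n → F4} (h : Mu D x b p a g m) (h' : Mu D x b p a g' m') :
    Mu D x b p a (g * g') (m + m') :=
  ⟨by simp [h.me, h'.me], by simp [h.mf, h'.mf], h.cx.mul_left h'.cx, fun w hw d => by
    rw [cj_mul, h'.act w hw, h.act w hw, map_add, LinearMap.add_apply, add_assoc, add_comm (hf m' _)]⟩

theorem Mu.inv {g : G} {m : Fin n → F4} (h : Mu D x b p a g m) : Mu D x b p a g⁻¹ m :=
  ⟨h.me, h.mf, h.cx.inv_left, fun w hw d => by
    rw [← cj_inj (g := g), cj_cj_inv, h.act w hw, add_assoc, CharTwo.add_self_eq_zero, add_zero]⟩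

end

variable [Finite G]

namespace UM
variable {D : Set G} {x b : G} {p : G → F4 → G} {n : ℕ} {a : G → Fin n → F4} (h : UM D x b p a)
include h

omit [Finite G] in
theorem xx : x * x = 1 := threeTransp_mul_self h.toBase.set h.hx

omit [Finite G] in
theorem fe : hf (a b) (a x) = 1 := by rw [hf_swap, h.ef, map_one]

omit [Finite G] in
theorem ww {w : G} (hw : w ∈ ZZ D x b) : hf (a w) (a w) = 0 := (h.gc w hw w hw).mpr (Commute.refl w)

omit [Finite G] in
theorem p_perp {w : G} (hw : w ∈ ZZ D x b) (c : F4) : p w c ∈ perp D x :=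
  h.toBase.ls_perp (h.toBase.Z_perp hw) ((h.par w hw).mem c)

omit [Finite G] in
theorem p_comm {w : G} (hw : w ∈ ZZ D x b) (c d : F4) : Commute (p w c) (p w d) :=
  (h.toBase.isLine (h.toBase.Z_perp hw)).comm ((h.par w hw).mem c).1 ((h.par w hw).mem d).1

omit [Finite G] in
theorem w_comm {w : G} (hw : w ∈ ZZ D x b) (d : F4) : Commute w (p w d) := by
  have := h.p_comm hw 0 d
  rwa [(h.par w hw).zero] at this

theorem p_comm_iff {w w' : G} (hw : w ∈ ZZ D x b) (hw' : w' ∈ ZZ D x b) (c d : F4) :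
    Commute (p w c) (p w' d) ↔ Commute w w' :=
  h.toBase.comm_iff (h.toBase.Z_perp hw) (h.toBase.Z_perp hw') ((h.par w hw).mem c)
    ((h.par w' hw').mem d)

theorem p_comm_b {w : G} (hw : w ∈ ZZ D x b) {c : F4} : Commute b (p w c) ↔ c = 0 := by
  refine ⟨fun h1 => (h.par w hw).inj ?_, fun h1 => by rw [h1, (h.par w hw).zero]; exact hw.2.2⟩
  rw [(h.par w hw).zero]
  have pw := h.toBase.Z_perp hw
  exact h.toBase.eq_of_comm pw ((h.par w hw).mem c) (Base.self_mem_ls pw) h.hb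
    (fun h' => h.hxb h'.symm) h1 hw.2.2

theorem exists_p {u : G} (hu : u ∈ perp D x) : ∃ w ∈ ZZ D x b, ∃ c, u = p w c := by
  obtain ⟨w, hw, h1⟩ := h.toBase.exists_Z hu
  obtain ⟨c, hc⟩ := (h.par w hw).surj u h1
  exact ⟨w, hw, c, hc.symm⟩

omit [Finite G] in
theorem vext {y : Fin n → F4} (h1 : hf y (a x) = 0) (h2 : hf y (a b) = 0)
    (h3 : ∀ w ∈ ZZ D x b, hf y (a w) = 0) : y = 0 := by
  refine hf_nondeg fun u => hf_comm.mp ?_
  obtain ⟨α, β, m, hm, rfl⟩ := h.dec u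
  have : hf y m = 0 := by
    refine Submodule.span_induction (p := fun m _ => hf y m = 0) ?_ (by simp)
      (fun x y _ _ hx hy => by simp [hx, hy]) (fun c x _ hx => by simp [hx]) hm
    rintro _ ⟨w, hw, rfl⟩
    exact h3 w hw
  simp [h1, h2, this]

theorem star {w w' : G} (hw : w ∈ ZZ D x b) (hw' : w' ∈ ZZ D x b) (c d : F4) :
    cj (w * p w c) (p w' d) = p w' (d + c * hf (a w) (a w')) := by
  have hD := h.toBase.set
  by_cases hc : Commute w w'
  · rw [(h.gc w hw w' hw').mpr hc, mul_zero, add_zero]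
    refine cj_of_commute (Commute.mul_left ?_ ((h.p_comm_iff hw hw' c d).mpr hc))
    have := (h.p_comm_iff hw hw' 0 d).mpr hc
    rwa [(h.par w hw).zero] at this
  by_cases hc0 : c = 0
  · rw [hc0, (h.par w hw).zero, threeTransp_mul_self hD hw.1, cj_one, zero_mul, add_zero]
  have ht := h.toBase.cj_Z hw hw'
  have pw' := h.toBase.Z_perp hw'
  have hl := h.toBase.isLine pw'
  set e := c * hf (a w) (a w')
  have he : e ≠ 0 := mul_ne_zero hc0 fun h1 => hc ((h.gc w hw w' hw').mp h1)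
  have e1 : w = cj (cj w w') w' := (cj_cj_right hD hw.1 hw'.1 hc).symm
  have e2 : p w c = cj (cj w w') (p w' e) := by
    rw [← h.edge w hw w' hw' hc, cj_cj hD ht.1]
  have n1 : ¬ Commute (cj w w') w' := fun h1 => not_commute_cj_self' hD hw.1 hw'.1 hc h1.symm
  have n2 : ∀ u ∈ ls D x w', ¬ Commute (cj w w') u := fun u hu h1 =>
    n1 ((h.toBase.comm_ls_iff pw' hu ht.1 ht.2.1.symm).mp h1)
  have hm := (h.par w' hw').mem e
  have e3 : ∀ y, cj (w * p w c) y = cj (cj (cj w w') w') (cj (cj (cj w w') (p w' e)) y) := fun y => by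
    rw [cj_mul, ← e1, ← e2]
  refine (h.par w' hw').shift (cj (w * p w c)) (fun u hu => ⟨?_, fun h1 => hu.2 ?_⟩) (fun u => ?_)
    (fun u hu => ?_) ?_ d
  · rw [e3]
    exact h.fi.trans_mem hl ht.1 (right_mem_line hw'.1) hm.1 n1 (n2 _ hm) hu.1
  · rwa [← cj_of_commute (hw.2.1.symm.mul_left (h.p_perp hw c).2.2.symm), cj_inj] at h1
  · rw [← cj_mul, mul_assoc, ← mul_assoc (p w c), ← (h.w_comm hw c).eq, mul_assoc,
      threeTransp_mul_self hD (h.p_perp hw c).1, mul_one, threeTransp_mul_self hD hw.1, cj_one]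
  · rw [e3]
    refine h.fi.trans_ne hl ht.1 (right_mem_line hw'.1) hm.1 n1 (fun h1 => he ?_) hu.1 (n2 u hu)
    exact ((h.par w' hw').inj ((h.par w' hw').zero.trans h1)).symm
  · rw [(h.w_comm hw c).eq, cj_mul, e2, cj_cj_left hD ht.1 hm.1.1 (n2 _ hm)]

theorem prod4 {w : G} (hw : w ∈ ZZ D x b) : p w F4.v = x * w * p w 1 * p w F4.w := by
  have pw := h.toBase.Z_perp hw
  have hp := h.par w hw
  have := h.fi.prod_five h.thick (h.toBase.isLine pw) (left_mem_line h.hx) (hp.mem 0).1 (hp.mem 1).1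
    (hp.mem F4.w).1 (hp.mem F4.v).1 (hp.mem _).2.symm (hp.mem _).2.symm (hp.mem _).2.symm
    (hp.mem _).2.symm (hp.inj.ne (by decide)) (hp.inj.ne (by decide)) (hp.inj.ne (by decide))
    (hp.inj.ne (by decide)) (hp.inj.ne (by decide)) (hp.inj.ne (by decide))
  rw [h.cen, mem_bot, mul_eq_one_iff_eq_inv, inv_eq h.toBase.set (hp.mem _).1.1, hp.zero] at this
  exact this.symm

theorem sw_add {w : G} (hw : w ∈ ZZ D x b) (c d : F4) :
    sw x p w (c + d) = sw x p w c * sw x p w d := by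
  have hD := h.toBase.set
  have h0 : sw x p w 0 = 1 := by
    rw [sw, zero_mul, xp_zero, one_mul, (h.par w hw).zero, threeTransp_mul_self hD hw.1]
  have k1 := h.xx
  have k2 := threeTransp_mul_self hD hw.1
  have k3 := threeTransp_mul_self hD (h.p_perp hw 1).1
  have k4 := threeTransp_mul_self hD (h.p_perp hw F4.w).1
  have c1 : Commute x w := hw.2.1
  have c2 : Commute x (p w 1) := (h.p_perp hw 1).2.2
  have c3 : Commute x (p w F4.w) := (h.p_perp hw F4.w).2.2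
  have c4 := h.w_comm hw 1
  have c5 := h.w_comm hw F4.w
  have c6 := h.p_comm hw 1 F4.w
  have h1 : sw x p w 1 = x * (w * p w 1) := rfl
  have h2 : sw x p w F4.w = x * (w * p w F4.w) := rfl
  have h3 : sw x p w F4.v = p w 1 * p w F4.w := by
    change x * (w * p w F4.v) = _
    rw [h.prod4 hw, ← mul_assoc, ← mul_assoc, ← mul_assoc, ← mul_assoc, mul_assoc x w x, ← c1.eq,
      ← mul_assoc, k1, one_mul, k2, one_mul]
  have c7 : Commute (sw x p w 1) (sw x p w F4.w) := by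
    rw [h1, h2]
    exact ((Commute.refl x).mul_right (c1.mul_right c3)).mul_left
      ((c1.symm.mul_right ((Commute.refl w).mul_right c5)).mul_left
        (c2.symm.mul_right (c4.symm.mul_right c6)))
  have s1 : sw x p w 1 * sw x p w 1 = 1 := by
    rw [h1, ← pow_two, (c1.mul_right c2).mul_pow, c4.mul_pow, pow_two, pow_two, pow_two, k1, k2, k3,
      one_mul, one_mul]
  have s2 : sw x p w F4.w * sw x p w F4.w = 1 := by
    rw [h2, ← pow_two, (c1.mul_right c3).mul_pow, c5.mul_pow, pow_two, pow_two, pow_two, k1, k2, k4,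
      one_mul, one_mul]
  have s3 : sw x p w F4.v = sw x p w 1 * sw x p w F4.w := by
    rw [h3, h1, h2, (c1.mul_right c2).symm.mul_mul_mul_comm, k1, one_mul,
      c4.symm.mul_mul_mul_comm, k2, one_mul]
  by_cases hc : c = 0
  · rw [hc, h0, one_mul, zero_add]
  by_cases hd : d = 0
  · rw [hd, h0, mul_one, add_zero]
  obtain rfl | rfl | rfl : c = 1 ∨ c = F4.w ∨ c = F4.v := by revert c; decide
  all_goals obtain rfl | rfl | rfl : d = 1 ∨ d = F4.w ∨ d = F4.v := by revert d; decide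
  · exact h0.trans s1.symm
  · exact s3
  · change sw x p w F4.w = sw x p w 1 * _
    rw [s3, ← mul_assoc, s1, one_mul]
  · exact s3.trans c7.eq
  · exact h0.trans s2.symm
  · change sw x p w 1 = _
    rw [s3, c7.eq, ← mul_assoc, s2, one_mul]
  · change sw x p w F4.w = _ * sw x p w 1
    rw [s3, c7.eq, mul_assoc, s1, mul_one]
  · change sw x p w 1 = _
    rw [s3, mul_assoc, s2, mul_one]
  · change sw x p w 0 = _
    rw [h0, s3, ← pow_two, c7.mul_pow, pow_two, pow_two, s1, s2, one_mul]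

omit [Finite G] in
theorem sw_zero {w : G} (hw : w ∈ ZZ D x b) : sw x p w 0 = 1 := by
  rw [sw, zero_mul, xp_zero, one_mul, (h.par w hw).zero, threeTransp_mul_self h.toBase.set hw.1]

theorem sw_sq {w : G} (hw : w ∈ ZZ D x b) (c : F4) : sw x p w c * sw x p w c = 1 := by
  rw [← h.sw_add hw, CharTwo.add_self_eq_zero, h.sw_zero hw]

omit [Finite G] in
theorem sw_comm {w : G} (hw : w ∈ ZZ D x b) (c : F4) : Commute (sw x p w c) x :=
  (commute_xp (Commute.refl x) _).symm.mul_left (hw.2.1.symm.mul_left (h.p_perp hw c).2.2.symm)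

omit [Finite G] in
theorem mu_xp (i : F4) : Mu D x b p a (xp x i) 0 :=
  ⟨by simp, by simp, (commute_xp (Commute.refl x) i).symm, fun w hw d => by
    rw [cj_of_commute (commute_xp (h.p_perp hw d).2.2.symm i).symm]; simp⟩

theorem mu_sw {w : G} (hw : w ∈ ZZ D x b) (c : F4) : Mu D x b p a (sw x p w c) (c • a w) := by
  have := (h.mu_xp (c * fr c)).mul (g' := w * p w c) (m' := c • a w)
    ⟨by simp [h.we w hw], by simp [h.wf w hw], hw.2.1.symm.mul_left (h.p_perp hw c).2.2.symm,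
      fun w' hw' d => by rw [h.star hw hw']; simp⟩
  rwa [zero_add] at this

theorem mu_PP {q : Tr G n} (hq : q ∈ PP D x b p a) : Mu D x b p a q.g q.m := by
  obtain ⟨w, hw, c, i, -, rfl⟩ := hq
  simpa using (h.mu_xp i).mul (h.mu_sw hw c)

theorem mu_cl {q : Tr G n} (hq : q ∈ Submonoid.closure (PP D x b p a)) : Mu D x b p a q.g q.m :=
  Submonoid.closure_induction (fun _ hq => h.mu_PP hq) Mu.one (fun _ _ _ _ h1 h2 => h1.mul h2) hq

theorem cj_sw {g : G} {m : Fin n → F4} (hg : Mu D x b p a g m) {w : G} (hw : w ∈ ZZ D x b) (c : F4) :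
    cj g (sw x p w c) = xp x (tr (hf m (c • a w))) * sw x p w c := by
  have e : ∀ d, w * p w d = xp x (d * fr d) * sw x p w d := fun d => by
    rw [sw, ← mul_assoc, ← xp_add h.xx (F2_N _) (F2_N _),
      CharTwo.add_self_eq_zero, xp_zero, one_mul]
  have k := hg.act w hw 0
  rw [(h.par w hw).zero, zero_add] at k
  rw [sw, cj_mul_right, cj_mul_right, cj_of_commute (commute_xp hg.cx _), k, hg.act w hw,
    map_smulₛₗ, smul_eq_mul]
  generalize hf m (a w) = δ
  have e2 : p w δ * p w (c + δ) = (w * p w δ) * (w * p w (c + δ)) := by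
    rw [(h.w_comm hw δ).symm.mul_mul_mul_comm, threeTransp_mul_self h.toBase.set hw.1, one_mul]
  rw [e2, e, e, (commute_xp (h.sw_comm hw δ) _).mul_mul_mul_comm, ← h.sw_add hw, add_comm c δ,
    ← add_assoc, CharTwo.add_self_eq_zero, zero_add, ← sw, ← mul_assoc,
    ← xp_add h.xx (F2_N _) (F2_N _), ← xp_add h.xx (F2_N _) ((F2_N _).add (F2_N _))]
  congr 2
  clear e2
  revert δ c; decide

omit [Finite G] in
theorem PP_iso {q : Tr G n} (hq : q ∈ PP D x b p a) : hf q.m q.m = 0 := by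
  obtain ⟨w, hw, c, i, -, rfl⟩ := hq
  simp [h.ww hw]

omit [Finite G] h in
theorem PP_F2 {q : Tr G n} (hq : q ∈ PP D x b p a) : F2 q.γ := by
  obtain ⟨w, hw, c, i, hi, rfl⟩ := hq
  exact hi

theorem PP_sq {q : Tr G n} (hq : q ∈ PP D x b p a) : q * q = 1 := by
  have h1 := h.PP_iso hq
  obtain ⟨w, hw, c, i, hi, rfl⟩ := hq
  refine Tr.ext ?_ (vadd_self _) (by simpa [CharTwo.add_self_eq_zero] using h1)
  rw [Tr.mul_g, (commute_xp (h.sw_comm hw c) i).mul_mul_mul_comm, h.sw_sq hw, ← xp_add h.xx hi hi,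
    CharTwo.add_self_eq_zero, xp_zero, one_mul, Tr.one_g]

theorem PP_swap {q r : Tr G n} (hq : Mu D x b p a q.g q.m) (hr : r ∈ PP D x b p a) :
    ∃ r' ∈ PP D x b p a, r'.m = r.m ∧ q * r = r' * q := by
  obtain ⟨w, hw, c, i, hi, rfl⟩ := hr
  refine ⟨_, ⟨w, hw, c, i + tr (hf q.m (c • a w)), hi.add (F2_tr _), rfl⟩, rfl,
    Tr.ext ?_ (add_comm _ _) ?_⟩
  · simp only [Tr.mul_g]
    rw [xp_add h.xx hi (F2_tr _), mul_assoc (xp x i), ← h.cj_sw hq hw, cj, mul_assoc (xp x i),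
      inv_mul_cancel_right, ← mul_assoc, ← mul_assoc, (commute_xp hq.cx i).eq]
  · simp only [Tr.mul_γ, tr, ← hf_swap]
    linear_combination (-hf q.m (c • a w)) * (by decide : (2 : F4) = 0)

theorem sq_cl {q : Tr G n} (hq : q ∈ Submonoid.closure (PP D x b p a)) :
    q.g * q.g = xp x (hf q.m q.m) ∧ tr q.γ = hf q.m q.m := by
  refine Submonoid.closure_induction_left (motive := fun q _ => q.g * q.g = xp x (hf q.m q.m) ∧
    tr q.γ = hf q.m q.m) (by simp [xp_zero, tr]) (fun r hr q hq ih => ?_) hq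
  have h1 := h.PP_iso hr
  have h3 : hf (r.m + q.m) (r.m + q.m) = tr (hf q.m r.m) + hf q.m q.m := by
    simp only [map_add, LinearMap.add_apply, h1, tr, ← hf_swap]; ring
  constructor
  · obtain ⟨w, hw, c, i, hi, rfl⟩ := hr
    rw [Tr.mul_g, Tr.mul_m, h3, xp_add h.xx (F2_tr _) (hf_self _), ← ih.1]
    have := h.cj_sw (h.mu_cl hq) hw c
    have c1 := commute_xp (h.mu_cl hq).cx i
    have c2 := commute_xp (h.sw_comm hw c) i
    have c3 := commute_xp (h.sw_comm hw c) (tr (hf q.m (c • a w)))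
    calc xp x i * sw x p w c * q.g * (xp x i * sw x p w c * q.g)
        = xp x i * (sw x p w c * (q.g * xp x i)) * sw x p w c * q.g := by group
      _ = (xp x i * xp x i) * sw x p w c * cj q.g (sw x p w c) * (q.g * q.g) := by
        rw [c1.eq, ← mul_assoc (sw x p w c), c2.eq, cj]; group
      _ = _ := by
        rw [← xp_add h.xx hi hi, CharTwo.add_self_eq_zero, xp_zero, one_mul, this,
          ← mul_assoc (sw x p w c), c3.eq, mul_assoc (xp _ _), h.sw_sq hw, mul_one]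
  · rw [Tr.mul_m, h3, ← ih.2, Tr.mul_γ]
    have := PP_F2 hr
    generalize r.γ = s at this
    generalize q.γ = t
    generalize hf q.m r.m = u
    revert s t u; decide

theorem reg {g : G} {m : Fin n → F4} (hg : Mu D x b p a g m) (hb : cj g b = b) : g = 1 ∧ m = 0 := by
  have hm : m = 0 := h.vext hg.me hg.mf fun w hw => by
    have := hg.act w hw 0
    rw [zero_add, (h.par w hw).zero] at this
    rw [← h.p_comm_b hw, ← this, ← hb, commute_cj]
    exact hw.2.2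
  refine ⟨eq_one_of_commute h.toBase.cl h.cen fun d hd => ?_, hm⟩
  have k : ∀ d ∈ D, Commute x d → Commute g d := fun d hd hc => by
    by_cases hdx : d = x
    · exact hdx ▸ hg.cx
    obtain ⟨w, hw, c, rfl⟩ := h.exists_p ⟨hd, hdx, hc⟩
    rw [← cj_eq_self_iff, hg.act w hw, hm]; simp
  by_cases hc : Commute x d
  · exact k d hd hc
  obtain ⟨s, hs, rfl⟩ := h.fi.nc_trans h.hx h.hb hd h.hxb hc
  have : closure {y | y ∈ D ∧ Commute x y} ≤ centralizer {g} := (closure_le _).mpr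
    fun y hy => mem_centralizer_singleton_iff.mpr (k y hy.1 hy.2).symm
  exact commute_cj_of (mem_centralizer_singleton_iff.mp (this hs)).symm (cj_eq_self_iff.mp hb)

theorem reg' {g g' : G} {m m' : Fin n → F4} (hg : Mu D x b p a g m) (hg' : Mu D x b p a g' m')
    (hb : cj g b = cj g' b) : g = g' ∧ m = m' := by
  obtain ⟨h1, h2⟩ := h.reg (hg'.inv.mul hg) (by rw [cj_mul, hb, cj_inv_cj])
  exact ⟨(inv_mul_eq_one.mp h1).symm, by rw [← zero_add m', ← h2, add_comm m' m, add_assoc,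
    vadd_self, add_zero]⟩

theorem one_mem_PP : (1 : Tr G n) ∈ PP D x b p a := by
  obtain ⟨w, hw⟩ := h.toBase.Z_nonempty
  exact ⟨w, hw, 0, 0, Or.inl rfl, Tr.ext (by simp [xp_zero, h.sw_zero hw]) (by simp) rfl⟩

theorem x_mem_PP : (⟨x, 0, 1⟩ : Tr G n) ∈ PP D x b p a := by
  obtain ⟨w, hw⟩ := h.toBase.Z_nonempty
  exact ⟨w, hw, 0, 1, Or.inr rfl, Tr.ext (by simp [xp_one, h.sw_zero hw]) (by simp) rfl⟩

theorem trans {c : G} (hc : c ∈ D) (hxc : ¬ Commute x c) :
    ∃ q ∈ Submonoid.closure (PP D x b p a), c = cj q.g b := by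
  have hD := h.toBase.set
  obtain ⟨s, hs, rfl⟩ := h.fi.nc_trans h.hx h.hb hc h.hxb hxc
  clear hc hxc
  have conj : ∀ t ∈ ZZ D x b, ∀ q ∈ Submonoid.closure (PP D x b p a),
      ∃ q' ∈ Submonoid.closure (PP D x b p a), q'.g = cj t q.g := fun t ht q hq => by
    refine Submonoid.closure_induction (motive := fun q _ => ∃ q' ∈ Submonoid.closure (PP D x b p a),
      q'.g = cj t q.g) ?_ ⟨1, one_mem _, by simp [cj]⟩ ?_ hq
    · rintro _ ⟨w, hw, c, i, hi, rfl⟩
      by_cases hc : Commute t w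
      · refine ⟨_, Submonoid.subset_closure ⟨w, hw, c, i, hi, rfl⟩, (cj_of_commute ?_).symm⟩
        refine (commute_xp ht.2.1.symm _).mul_right ((commute_xp ht.2.1.symm _).mul_right
          (hc.mul_right ?_))
        have := (h.p_comm_iff ht hw 0 c).mpr hc
        rwa [(h.par t ht).zero] at this
      · have hw' := h.toBase.cj_Z ht hw
        have n1 : ¬ Commute w (cj t w) := not_commute_cj_self' hD ht.1 hw.1 hc
        have e := h.edge w hw _ hw' n1 c
        rw [cj_swap hD hw.1 ht.1 fun h => hc h.symm] at e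
        refine ⟨_, Submonoid.subset_closure ⟨_, hw', c * hf (a w) (a (cj t w)), i, hi, rfl⟩, ?_⟩
        have n2 : hf (a w) (a (cj t w)) ≠ 0 := fun h1 => n1 ((h.gc w hw _ hw').mp h1)
        simp only [sw, cj_mul_right, cj_of_commute (commute_xp ht.2.1.symm _), e]
        congr 3
        clear e
        generalize hf (a w) (a (cj t w)) = s at n2
        revert s c; decide
    · rintro q r _ _ ⟨q', h1, h2⟩ ⟨r', h3, h4⟩
      exact ⟨q' * r', mul_mem h1 h3, by rw [Tr.mul_g, Tr.mul_g, h2, h4, cj_mul_right]⟩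
  have step : ∀ u ∈ {y | y ∈ D ∧ Commute x y}, ∀ q ∈ Submonoid.closure (PP D x b p a),
      ∃ q' ∈ Submonoid.closure (PP D x b p a), cj u (cj q.g b) = cj q'.g b := fun u hu q hq => by
    by_cases hux : u = x
    · exact ⟨_, mul_mem (Submonoid.subset_closure h.x_mem_PP) hq, by rw [hux, Tr.mul_g, cj_mul]⟩
    obtain ⟨w, hw, c, rfl⟩ := h.exists_p ⟨hu.1, hux, hu.2⟩
    obtain ⟨q', h1, h2⟩ := conj w hw q hq
    refine ⟨_, mul_mem (Submonoid.subset_closure ⟨w, hw, c, c * fr c, F2_N _, rfl⟩) h1,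
      ?_⟩
    rw [Tr.mul_g, h2, sw, ← mul_assoc, ← xp_add h.xx (F2_N _) (F2_N _),
      CharTwo.add_self_eq_zero, xp_zero, one_mul, (h.w_comm hw c).eq, cj_mul, cj_mul,
      ← cj_of_commute hw.2.2.symm, cj_cj_cj, cj_cj hD hw.1, cj_of_commute hw.2.2.symm]
  refine closure_induction_left (p := fun s _ => ∃ q ∈ Submonoid.closure (PP D x b p a),
    cj s b = cj q.g b) ⟨1, one_mem _, rfl⟩ ?_ ?_ hs
  · rintro u hu s _ ⟨q, hq, e⟩
    rw [cj_mul, e]; exact step u hu q hq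
  · rintro u hu s _ ⟨q, hq, e⟩
    rw [cj_mul, e, inv_eq hD hu.1]; exact step u hu q hq

theorem cj_sw_b {w : G} (hw : w ∈ ZZ D x b) {c : F4} (hc : c ≠ 0) :
    cj (sw x p w c) b = cj (cj x b) (p w c) := by
  have : c * fr c = 1 := by revert c; decide
  have n1 : ¬ Commute b (p w c) := fun h1 => hc ((h.p_comm_b hw).mp h1)
  rw [sw, this, xp_one, (h.w_comm hw c).eq, cj_mul, cj_mul, cj_of_commute hw.2.2.symm,
    ← cj_comm h.toBase.set h.hb (h.p_perp hw c).1 n1, ← cj_cj_cj x b,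
    cj_of_commute (h.p_perp hw c).2.2]

theorem K0 {q : Tr G n} (hq : q ∈ PP D x b p a) : Commute (cj q.g b) b ↔ q.γ = 0 := by
  have hD := h.toBase.set
  obtain ⟨w, hw, c, i, hi, rfl⟩ := hq
  have k : Commute (cj (sw x p w c) b) b := by
    by_cases hc : c = 0
    · rw [hc, h.sw_zero hw, cj_one]
    · rw [h.cj_sw_b hw hc, commute_cj_left hD (cj_mem_D h.toBase.cl h.hb x),
        cj_cj_right hD h.hx h.hb h.hxb]
      exact (h.p_perp hw c).2.2.symm
  rcases hi with rfl | rfl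
  · simpa [xp_zero] using k
  · refine ⟨fun h1 => ?_, fun h1 => absurd h1 one_ne_zero⟩
    rw [xp_one, cj_mul] at h1
    have := commute_of_cj' hD h.hx (cj_mem_D h.toBase.cl h.hb (sw x p w c)) (fun h2 => h.hxb
      (commute_of_cj (h.sw_comm hw c).symm h2)) k.symm h1.symm
    exact absurd this.symm h.hxb

theorem K1 {g : G} {m : Fin n → F4} (hg : Mu D x b p a g m) (hc : Commute (cj g b) b) :
    ∃ w ∈ ZZ D x b, ∃ c, g = sw x p w c ∧ m = c • a w := by
  have hD := h.toBase.cl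
  by_cases h1 : cj g b = b
  · obtain ⟨w, hw⟩ := h.toBase.Z_nonempty
    obtain ⟨rfl, rfl⟩ := h.reg hg h1
    exact ⟨w, hw, 0, (h.sw_zero hw).symm, by simp⟩
  have hl := isLine_line h.hb (u := cj g b) ⟨cj_mem_D hD h.hb g, h1, hc.symm⟩
  obtain ⟨w, hw, hxw⟩ := h.fi.exists_comm h.thick hl h.hx
  have hwZ : w ∈ ZZ D x b := ⟨hw.1, hxw, hl.comm (left_mem_line h.hb) hw⟩
  have pw := h.toBase.Z_perp hwZ
  have e1 : cj (cj x b) x = b := cj_cj_left hD.1 h.hx h.hb h.hxb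
  have e2 : cj (cj x b) w = w := cj_of_commute (commute_cj_of hxw.symm hwZ.2.2.symm).symm
  have e := h.fi.line_unique hl ((h.toBase.isLine pw).image hD (cj x b)) (left_mem_line h.hb) hw
    ⟨x, left_mem_line h.hx, e1⟩ ⟨w, right_mem_line hw.1, e2⟩ fun e => h.hxb (e ▸ hxw)
  obtain ⟨u, hu, e3⟩ : cj g b ∈ cj (cj x b) '' line D x w :=
    e ▸ right_mem_line (cj_mem_D hD h.hb g)
  obtain ⟨c, rfl⟩ := (h.par w hwZ).surj u ⟨hu, fun e4 => h1 (by rw [← e3, e4, e1])⟩
  have hc0 : c ≠ 0 := fun e4 => h.hxb (commute_of_cj hg.cx.symm (by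
    rw [← e3, e4, (h.par w hwZ).zero, e2]; exact hxw))
  exact ⟨w, hwZ, c, h.reg' hg (h.mu_sw hwZ c) (by rw [h.cj_sw_b hwZ hc0, e3])⟩

theorem K2 {g : G} {m : Fin n → F4} (hg : Mu D x b p a g m) (hc : g * g = 1) :
    ∃ w ∈ ZZ D x b, ∃ c i, F2 i ∧ g = xp x i * sw x p w c ∧ m = c • a w := by
  have hD := h.toBase.cl
  by_cases h1 : Commute (cj g b) b
  · obtain ⟨w, hw, c, h2⟩ := h.K1 hg h1
    exact ⟨w, hw, c, 0, Or.inl rfl, by rwa [xp_zero, one_mul]⟩
  by_cases h2 : Commute (cj (x * g) b) b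
  · obtain ⟨w, hw, c, h3, h4⟩ := h.K1 ((h.mu_xp 1).mul hg) h2
    exact ⟨w, hw, c, 1, Or.inr rfl, by rw [← h3, ← mul_assoc, xp_one, h.xx, one_mul],
      by rwa [zero_add] at h4⟩
  exfalso
  have hc' := cj_mem_D hD h.hb g
  obtain ⟨q, hq, e⟩ := h.trans (cj_mem_D hD hc' b) fun h3 => h2 (by
    rw [cj_mul, commute_cj_left hD.1 h.hx, cj_comm hD.1 h.hx h.hb h.hxb,
      ← commute_cj_left hD.1 h.hb]
    exact h3.symm)
  have k : cj g (cj b (cj g b)) = cj b (cj g b) := by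
    rw [← cj_cj_cj, ← cj_mul g g, hc, cj_one, cj_comm hD.1 hc' h.hb h1]
  have := (h.reg (((h.mu_cl hq).inv.mul hg).mul (h.mu_cl hq))
    (by rw [cj_mul, cj_mul, ← e, k, e, cj_inv_cj])).1
  rw [mul_assoc, inv_mul_eq_one, right_eq_mul] at this
  exact h1 (by rw [this, cj_one])

theorem exists_cl {m : Fin n → F4} (h1 : hf m (a x) = 0) (h2 : hf m (a b) = 0) :
    ∃ q ∈ Submonoid.closure (PP D x b p a), q.m = m := by
  obtain ⟨α, β, m, hm, rfl⟩ := h.dec m
  obtain ⟨q, hq, rfl⟩ : ∃ q ∈ Submonoid.closure (PP D x b p a), q.m = m := by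
    clear h1 h2
    suffices ∀ c : F4, ∃ q ∈ Submonoid.closure (PP D x b p a), q.m = c • m by simpa using this 1
    refine Submodule.span_induction (p := fun m _ => ∀ c : F4,
      ∃ q ∈ Submonoid.closure (PP D x b p a), q.m = c • m) ?_ (fun c => ⟨1, one_mem _, by simp⟩)
      (fun y z _ _ hy hz c => ?_) (fun d y _ hy c => by simpa [smul_smul] using hy (c * d)) hm
    · rintro _ ⟨w, hw, rfl⟩ c
      exact ⟨_, Submonoid.subset_closure ⟨w, hw, c, 0, Or.inl rfl, rfl⟩, rfl⟩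
    · obtain ⟨q, hq, e⟩ := hy c
      obtain ⟨r, hr, e'⟩ := hz c
      exact ⟨q * r, mul_mem hq hr, by rw [Tr.mul_m, e, e', smul_add]⟩
  have k := h.mu_cl hq
  simp only [map_add, map_smul, LinearMap.add_apply, LinearMap.smul_apply, h.ee, h.ff, h.ef, h.fe,
    k.me, k.mf, smul_eq_mul, mul_zero, mul_one, add_zero, zero_add] at h1 h2
  exact ⟨q, hq, by simp [h1, h2]⟩

theorem R4 {m : Fin n → F4} (h1 : hf m (a x) = 0) (h2 : hf m (a b) = 0) (h3 : hf m m = 0) :
    ∃ w ∈ ZZ D x b, ∃ c : F4, m = c • a w := by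
  obtain ⟨q, hq, rfl⟩ := h.exists_cl h1 h2
  obtain ⟨w, hw, c, -, -, -, e⟩ := h.K2 (h.mu_cl hq) (by rw [(h.sq_cl hq).1, h3, xp_zero])
  exact ⟨w, hw, c, e⟩

theorem R3 {q r : Tr G n} (hq : q ∈ PP D x b p a) (hr : r ∈ PP D x b p a)
    (ht : tr (hf r.m q.m) = 0) : q * r ∈ PP D x b p a := by
  have hD := h.toBase.cl
  have aux : ∀ w ∈ ZZ D x b, ∀ w' ∈ ZZ D x b, ∀ c c' : F4, tr (hf (c' • a w') (c • a w)) = 0 →
      (⟨sw x p w c, c • a w, 0⟩ * ⟨sw x p w' c', c' • a w', 0⟩ : Tr G n) ∈ PP D x b p a := by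
    intro w hw w' hw' c c' ht
    have m1 : (⟨sw x p w c, c • a w, 0⟩ : Tr G n) ∈ PP D x b p a :=
      ⟨w, hw, c, 0, Or.inl rfl, by rw [xp_zero, one_mul]⟩
    have m2 : (⟨sw x p w' c', c' • a w', 0⟩ : Tr G n) ∈ PP D x b p a :=
      ⟨w', hw', c', 0, Or.inl rfl, by rw [xp_zero, one_mul]⟩
    by_cases hc : c = 0
    · rwa [show (⟨sw x p w c, c • a w, 0⟩ : Tr G n) = 1 from
        Tr.ext (by rw [hc, h.sw_zero hw]; rfl) (by simp [hc]) rfl, one_mul]
    by_cases hc' : c' = 0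
    · rwa [show (⟨sw x p w' c', c' • a w', 0⟩ : Tr G n) = 1 from
        Tr.ext (by rw [hc', h.sw_zero hw']; rfl) (by simp [hc']) rfl, mul_one]
    have m3 := mul_mem (Submonoid.subset_closure m1) (Submonoid.subset_closure m2)
    obtain ⟨w3, hw3, c3, i, hi, e1, e2⟩ := h.K2 (h.mu_cl m3) (by
      rw [(h.sq_cl m3).1, ← (h.sq_cl m3).2, Tr.mul_γ, zero_add, zero_add, ht, xp_zero])
    refine ⟨w3, hw3, c3, i, hi, Tr.ext e1 e2 ?_⟩
    have k := h.K0 (q := ⟨_, _, i⟩) ⟨w3, hw3, c3, i, hi, rfl⟩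
    rw [← e1, Tr.mul_g, cj_mul, ← commute_cj (g := sw x p w c), ← cj_mul, h.sw_sq hw, cj_one,
      h.cj_sw_b hw hc, h.cj_sw_b hw' hc', commute_cj, h.p_comm_iff hw' hw, ← h.gc w' hw' w hw] at k
    simp only [Tr.mul_γ, zero_add, map_smul, map_smulₛₗ, LinearMap.smul_apply, smul_eq_mul] at ht k ⊢
    generalize hf (a w') (a w) = s at ht k
    clear e1 e2 m1 m2 m3
    revert s i c c'; decide
  obtain ⟨w, hw, c, i, hi, rfl⟩ := hq
  obtain ⟨w', hw', c', i', hi', rfl⟩ := hr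
  obtain ⟨w3, hw3, c3, i3, hi3, e⟩ := aux w hw w' hw' c c' ht
  have e1 := congrArg Tr.g e
  have e2 := congrArg Tr.m e
  have e3 := congrArg Tr.γ e
  simp only [Tr.mul_g, Tr.mul_m, Tr.mul_γ, zero_add] at e1 e2 e3
  refine ⟨w3, hw3, c3, i + i' + i3, (hi.add hi').add hi3, Tr.ext ?_ e2 (by simp only [Tr.mul_γ, e3])⟩
  rw [Tr.mul_g, (commute_xp (h.sw_comm hw c) _).mul_mul_mul_comm, e1, xp_add h.xx (hi.add hi') hi3,
    xp_add h.xx hi hi', mul_assoc, mul_assoc, mul_assoc]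

theorem three {r q1 q2 : Tr G n} (hr : r ∈ PP D x b p a) (h1 : q1 ∈ PP D x b p a)
    (h2 : q2 ∈ PP D x b p a) : ∃ s1 ∈ PP D x b p a, ∃ s2 ∈ PP D x b p a, r * q1 * q2 = s1 * s2 := by
  by_cases t1 : tr (hf q1.m r.m) = 0
  · exact ⟨_, h.R3 hr h1 t1, _, h2, rfl⟩
  by_cases t2 : tr (hf q2.m q1.m) = 0
  · exact ⟨_, hr, _, h.R3 h1 h2 t2, mul_assoc _ _ _⟩
  by_cases t3 : tr (hf q2.m r.m) = 0
  · obtain ⟨q', h3, -, e⟩ := h.PP_swap (h.mu_PP hr) h1
    exact ⟨_, h3, _, h.R3 hr h2 t3, by rw [e, mul_assoc]⟩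
  obtain ⟨m4, k1, k2, k3, k4, k5, k6⟩ : ∃ m4, hf m4 (a x) = 0 ∧ hf m4 (a b) = 0 ∧ hf m4 m4 = 0 ∧
      tr (hf m4 r.m) = 0 ∧ tr (hf m4 q1.m) = 0 ∧ tr (hf m4 q2.m) ≠ 0 := by
    have i1 := h.PP_iso hr
    have i2 := h.PP_iso h1
    have i3 := h.PP_iso h2
    have e1 := (h.mu_PP hr).me
    have e2 := (h.mu_PP h1).me
    have e3 := (h.mu_PP h2).me
    have f1 := (h.mu_PP hr).mf
    have f2 := (h.mu_PP h1).mf
    have f3 := (h.mu_PP h2).mf
    have key : ∀ s t u : F4, tr s ≠ 0 → tr t ≠ 0 → tr u ≠ 0 → ∃ α β γ : F4,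
        fr α * (β * s + γ * u) + fr β * (α * fr s + γ * t) + fr γ * (α * fr u + β * fr t) = 0 ∧
        tr (β * s + γ * u) = 0 ∧ tr (α * fr s + γ * t) = 0 ∧ tr (α * fr u + β * fr t) ≠ 0 := by
      decide
    obtain ⟨α, β, γ, l1, l2, l3, l4⟩ := key _ _ _ t1 t2 t3
    refine ⟨α • r.m + β • q1.m + γ • q2.m, by simp [e1, e2, e3], by simp [f1, f2, f3], ?_, ?_, ?_, ?_⟩
    all_goals
      simp only [map_add, map_smul, map_smulₛₗ, LinearMap.add_apply, LinearMap.smul_apply,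
        smul_eq_mul, i1, i2, i3, hf_swap q1.m r.m, hf_swap q2.m r.m, hf_swap q2.m q1.m, mul_zero,
        zero_add, add_zero]
      assumption
  obtain ⟨w, hw, c, rfl⟩ := h.R4 k1 k2 k3
  have m4 : (⟨xp x 0 * sw x p w c, c • a w, 0⟩ : Tr G n) ∈ PP D x b p a :=
    ⟨w, hw, c, 0, Or.inl rfl, rfl⟩
  have sym : ∀ u v : Fin n → F4, tr (hf u v) = tr (hf v u) := fun u v => by
    rw [hf_swap u v, tr, tr, fr_fr, add_comm]
  refine ⟨_, h.R3 hr m4 k4, _, h.R3 (h.R3 m4 h1 (by rwa [sym])) h2 ?_, ?_⟩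
  · rw [Tr.mul_m, map_add]
    rw [sym] at k6
    simp only at k6 ⊢
    generalize hf q2.m (c • a w) = s at k6
    generalize hf q2.m q1.m = t at t2
    revert s t; decide
  · have := h.PP_sq m4
    generalize (⟨xp x 0 * sw x p w c, c • a w, 0⟩ : Tr G n) = s at this
    rw [← mul_assoc, ← mul_assoc, mul_assoc r s s, this, mul_one]

theorem NF {q : Tr G n} (hq : q ∈ Submonoid.closure (PP D x b p a)) :
    ∃ s1 ∈ PP D x b p a, ∃ s2 ∈ PP D x b p a, q = s1 * s2 := by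
  refine Submonoid.closure_induction_left (motive := fun q _ => ∃ s1 ∈ PP D x b p a,
    ∃ s2 ∈ PP D x b p a, q = s1 * s2) ⟨1, h.one_mem_PP, 1, h.one_mem_PP, by simp⟩ ?_ hq
  rintro r hr _ _ ⟨s1, h1, s2, h2, rfl⟩
  rw [← mul_assoc]
  exact h.three hr h1 h2

theorem K {q : Tr G n} (hq : q ∈ Submonoid.closure (PP D x b p a)) :
    Commute (cj q.g b) b ↔ q.γ = 0 := by
  obtain ⟨s1, h1, s2, h2, rfl⟩ := h.NF hq
  by_cases t : tr (hf s2.m s1.m) = 0
  · exact h.K0 (h.R3 h1 h2 t)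
  have k : tr (s1 * s2).γ = 1 := by
    rw [Tr.mul_γ]
    have i1 := PP_F2 h1
    have i2 := PP_F2 h2
    generalize s1.γ = s at i1
    generalize s2.γ = s' at i2
    generalize hf s2.m s1.m = u at t
    revert s s' u; decide
  refine ⟨fun hc => ?_, fun hc => by rw [hc] at k; exact absurd k (by decide)⟩
  obtain ⟨w, hw, c, e, -⟩ := h.K1 (h.mu_cl hq) hc
  have := (h.sq_cl hq).1
  rw [← (h.sq_cl hq).2, k, e, h.sw_sq hw, xp_one] at this
  exact absurd this.symm (ne_one h.toBase.set h.hx)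

theorem exists_inv {q : Tr G n} (hq : q ∈ Submonoid.closure (PP D x b p a)) :
    ∃ q' ∈ Submonoid.closure (PP D x b p a), q' * q = 1 := by
  obtain ⟨s1, h1, s2, h2, rfl⟩ := h.NF hq
  exact ⟨s2 * s1, mul_mem (Submonoid.subset_closure h2) (Submonoid.subset_closure h1), by
    rw [mul_assoc, ← mul_assoc s1, h.PP_sq h1, one_mul, h.PP_sq h2]⟩

end UM

end Cfsg.Agent.Lib.Fischer
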